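import Mathlib

/-!
Skew maps of a field extension of prime degree: a subspace invariant under scalings and under one
transvection-like map contains every map of rank two.
-/

set_option autoImplicit false
set_option linter.unusedSectionVars false
set_option linter.style.haveILetI false

namespace Cfsg.Agent.MaxSub.OrthExt3

open Module

universe u w

variable {F : Type u} {K : Type w} [Field F] [Field K] [Algebra F K] [FiniteDimensional F K]
  [Finite F] [Finite K]

/-- Skew for the trace form. -/
def Skew (B : K →ₗ[F] K) : Prop := ∀ c, Algebra.trace F K (c * B c) = 0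

/-- The map `u ↦ tr(a u) b - tr(b u) a`. -/
noncomputable def sk (a b : K) : K →ₗ[F] K :=
  ((Algebra.trace F K) ∘ₗ LinearMap.mulLeft F a).smulRight b -
    ((Algebra.trace F K) ∘ₗ LinearMap.mulLeft F b).smulRight a

lemma sk_apply (a b c : K) :
    sk (F := F) a b c = Algebra.trace F K (a * c) • b - Algebra.trace F K (b * c) • a := rfl

/-- The map `c ↦ l B (l c)`. -/
noncomputable def scaled (l : K) (B : K →ₗ[F] K) : K →ₗ[F] K :=
  LinearMap.mulLeft F l ∘ₗ B ∘ₗ LinearMap.mulLeft F l

lemma scaled_apply (l : K) (B : K →ₗ[F] K) (c : K) : scaled l B c = l * B (l * c) := rfl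

lemma scaled_scaled (l m : K) (B : K →ₗ[F] K) : scaled l (scaled m B) = scaled (m * l) B := by
  ext c
  simp only [scaled_apply]
  rw [mul_assoc m l c]
  ring

lemma Skew.polar {B : K →ₗ[F] K} (hB : Skew B) (c d : K) :
    Algebra.trace F K (c * B d) = - Algebra.trace F K (d * B c) := by
  have h := hB (c + d)
  rw [map_add B, add_mul, mul_add, mul_add, map_add, map_add, map_add, hB, hB] at h
  linear_combination h

lemma ext_trace {a b : K}
    (h : ∀ t, Algebra.trace F K (t * a) = Algebra.trace F K (t * b)) : a = b := by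
  refine sub_eq_zero.1 ((traceForm_nondegenerate F K).1 _ fun t => ?_)
  rw [Algebra.traceForm_apply, mul_comm, mul_sub, map_sub, h, sub_self]

lemma two_ne (h2 : (2 : F) ≠ 0) : (2 : K) ≠ 0 := by
  rw [← map_ofNat (algebraMap F K) 2, ne_eq, map_eq_zero]
  exact h2

/-- The adjoint for the trace form. -/
lemma exists_adj (X : K →ₗ[F] K) : ∃ Y : K →ₗ[F] K,
    ∀ a b, Algebra.trace F K (X a * b) = Algebra.trace F K (a * Y b) := by
  have htr := traceForm_nondegenerate F K
  refine ⟨LinearMap.BilinForm.leftAdjointOfNondegenerate (Algebra.traceForm F K) htr X,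
    fun a b => ?_⟩
  have := LinearMap.BilinForm.isAdjointPairLeftAdjointOfNondegenerate (Algebra.traceForm F K) htr X
    b a
  simp only [Algebra.traceForm_apply] at this
  rw [mul_comm (X a), mul_comm a]
  exact this.symm

/-- The adjoint map. -/
noncomputable def adj (X : K →ₗ[F] K) : K →ₗ[F] K := (exists_adj X).choose

lemma trace_adj (X : K →ₗ[F] K) (a b : K) :
    Algebra.trace F K (X a * b) = Algebra.trace F K (a * adj X b) :=
  (exists_adj X).choose_spec a b

lemma adj_unique {X Y : K →ₗ[F] K}
    (h : ∀ a b, Algebra.trace F K (X a * b) = Algebra.trace F K (a * Y b)) : adj X = Y :=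
  LinearMap.ext fun b => ext_trace fun a => by rw [← trace_adj, h]

lemma adj_comp (X Y : K →ₗ[F] K) : adj (X ∘ₗ Y) = adj Y ∘ₗ adj X :=
  adj_unique fun a b => by rw [LinearMap.comp_apply, trace_adj, trace_adj]; rfl

lemma adj_add (X Y : K →ₗ[F] K) : adj (X + Y) = adj X + adj Y :=
  adj_unique fun a b => by
    simp only [LinearMap.add_apply, add_mul, mul_add, map_add, trace_adj]

lemma adj_sub (X Y : K →ₗ[F] K) : adj (X - Y) = adj X - adj Y :=
  adj_unique fun a b => by
    simp only [LinearMap.sub_apply, sub_mul, mul_sub, map_sub, trace_adj]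

lemma adj_smul (t : F) (X : K →ₗ[F] K) : adj (t • X) = t • adj X :=
  adj_unique fun a b => by
    simp only [LinearMap.smul_apply, smul_mul_assoc, mul_smul_comm, map_smul, trace_adj]

lemma adj_id : adj (LinearMap.id : K →ₗ[F] K) = LinearMap.id :=
  adj_unique fun a b => rfl

lemma adj_mul (l : K) : adj (LinearMap.mulLeft F l) = LinearMap.mulLeft F l :=
  adj_unique fun a b => by simp only [LinearMap.mulLeft_apply, mul_left_comm a l, mul_assoc]

lemma adj_zero : adj (0 : K →ₗ[F] K) = 0 :=
  adj_unique fun a b => by simp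

/-- The map `c ↦ tr(φ c) v`. -/
noncomputable def rankOne (φ v : K) : K →ₗ[F] K :=
  ((Algebra.trace F K) ∘ₗ LinearMap.mulLeft F φ).smulRight v

lemma adj_rankOne (φ v : K) : adj (rankOne (F := F) φ v) = rankOne v φ :=
  adj_unique fun a b => by
    simp only [rankOne, LinearMap.smulRight_apply, LinearMap.comp_apply, LinearMap.mulLeft_apply,
      smul_mul_assoc, mul_smul_comm, map_smul, smul_eq_mul]
    rw [mul_comm φ a]
    ring

/-- A skew map commuting with a scalar outside the ground field vanishes. -/
lemma skew_eq_zero_of_commute {r : ℕ} (hr : finrank F K = r) (hp : r.Prime) (h2 : (2 : F) ≠ 0)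
    {B : K →ₗ[F] K} (hB : Skew B) {ρ : K} (hρ : ∀ f : F, algebraMap F K f ≠ ρ)
    (hcomm : ∀ u, ρ * B u = B (ρ * u)) : B = 0 := by
  let S : Subalgebra F K :=
    { carrier := {k | ∀ u, k * B u = B (k * u)}
      mul_mem' := fun {s t} hs ht u => by rw [mul_assoc, ht, hs, mul_assoc]
      one_mem' := fun u => by rw [one_mul, one_mul]
      add_mem' := fun {s t} hs ht u => by rw [add_mul, hs, ht, add_mul, map_add]
      zero_mem' := fun u => by rw [zero_mul, zero_mul, map_zero]
      algebraMap_mem' := fun f u => by rw [← Algebra.smul_def, ← Algebra.smul_def, map_smul] }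
  haveI := Subalgebra.isSimpleOrder_of_finrank_prime F K (hr ▸ hp)
  have hall : ∀ k, k ∈ S := by
    rcases eq_bot_or_eq_top S with e | e
    · have hm : ρ ∈ S := hcomm
      rw [e, Algebra.mem_bot] at hm
      obtain ⟨f, hf⟩ := hm
      exact absurd hf (hρ f)
    · exact fun k => e ▸ Algebra.mem_top
  have hκ : ∀ u, B u = u * B 1 := fun u => by rw [hall u 1, mul_one]
  have h1 : B 1 = 0 := ext_trace (F := F) fun t => by
    have e := hB.polar t 1
    rw [hκ t, one_mul] at e
    rw [mul_zero, map_zero]
    exact (mul_eq_zero.1 (show (2 : F) * Algebra.trace F K (t * B 1) = 0 by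
      linear_combination e)).resolve_left h2
  exact LinearMap.ext fun u => by rw [hκ, h1, mul_zero, LinearMap.zero_apply]

/-- A skew map of odd degree has a kernel. -/
lemma exists_kernel (h2 : (2 : F) ≠ 0) (hodd : Odd (finrank F K)) {A : K →ₗ[F] K} (hA : Skew A) :
    ∃ k, k ≠ 0 ∧ A k = 0 := by
  classical
  let b := Module.finBasis F K
  let N : Matrix (Fin (finrank F K)) (Fin (finrank F K)) F :=
    Matrix.of fun i j => Algebra.trace F K (b i * A (b j))
  have hN : N.transpose = -N := by
    ext i j
    exact hA.polar (b j) (b i)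
  have hdet : N.det = 0 := by
    have h := congrArg Matrix.det hN
    rw [Matrix.det_transpose, Matrix.det_neg, Fintype.card_fin, hodd.neg_one_pow] at h
    exact (mul_eq_zero.1 (show (2 : F) * N.det = 0 by linear_combination h)).resolve_left h2
  obtain ⟨v, hv, hv'⟩ := Matrix.exists_mulVec_eq_zero_iff.2 hdet
  refine ⟨∑ j, v j • b j,
    fun h0 => hv (funext (Fintype.linearIndependent_iff.1 b.linearIndependent v h0)),
    ext_trace (F := F) fun k => ?_⟩
  have hz : (Algebra.trace F K) ∘ₗ LinearMap.mulRight F (A (∑ j, v j • b j)) = 0 :=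
    b.ext fun i => by
      have e := congrFun hv' i
      simp only [Matrix.mulVec, dotProduct, N, Matrix.of_apply, Pi.zero_apply] at e
      simp only [LinearMap.comp_apply, LinearMap.mulRight_apply, map_sum, map_smul, Finset.mul_sum,
        mul_smul_comm, LinearMap.zero_apply, smul_eq_mul]
      rw [← e]
      exact Finset.sum_congr rfl fun j _ => mul_comm _ _
  rw [mul_zero, map_zero]
  exact LinearMap.congr_fun hz k

/-- An invariant subspace reaches every vector orthogonal to a given one. -/
lemma exists_apply_eq {r : ℕ} (hr : finrank F K = r) (hp : r.Prime) (h2 : (2 : F) ≠ 0)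
    {O : Submodule F (K →ₗ[F] K)} (hscal : ∀ B ∈ O, ∀ l : K, scaled l B ∈ O)
    {A : K →ₗ[F] K} (hA : A ∈ O) (hAskew : Skew A) (hA0 : A ≠ 0) {c : K} (hc : c ≠ 0) {j : K}
    (hj : Algebra.trace F K (c * j) = 0) : ∃ B ∈ O, B c = j := by
  let ev : (K →ₗ[F] K) →ₗ[F] K :=
    { toFun := fun B => B c, map_add' := fun _ _ => rfl, map_smul' := fun _ _ => rfl }
  have hev : ∀ B, ev B = B c := fun B => rfl
  let W : Submodule F K := O.map ev
  suffices j ∈ W by
    obtain ⟨B, hB, e⟩ := this
    exact ⟨B, hB, (hev B).symm.trans e⟩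
  have htr : (Algebra.traceForm F K).Nondegenerate := traceForm_nondegenerate F K
  have hrefl : (Algebra.traceForm F K).IsRefl := fun u v huv => by
    rw [← huv, Algebra.traceForm_apply, Algebra.traceForm_apply, mul_comm]
  rw [← LinearMap.BilinForm.orthogonal_orthogonal htr hrefl W]
  intro μ hμ
  show Algebra.traceForm F K μ j = 0
  rw [Algebra.traceForm_apply]
  have hμ' : ∀ l, Algebra.trace F K (l * A (l * c) * μ) = 0 := fun l => by
    have := hμ (scaled l A c) ⟨scaled l A, hscal A hA l, rfl⟩
    exact this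
  have h3 : ∀ l, μ * A (c * l) = c * A (μ * l) := by
    intro l'
    refine ext_trace (F := F) fun l => ?_
    have h := hμ' (l + l')
    simp only [add_mul, map_add, mul_add] at h
    rw [hμ', hμ'] at h
    have e : Algebra.trace F K (l' * A (l * c) * μ) =
        - Algebra.trace F K (l * (c * A (μ * l'))) := by
      rw [show l' * A (l * c) * μ = μ * l' * A (l * c) by ring, hAskew.polar, mul_assoc]
    rw [e] at h
    rw [show l * (μ * A (c * l')) = l * A (l' * c) * μ by rw [mul_comm c l']; ring]
    linear_combination h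
  obtain ⟨ρ, hρ⟩ : ∃ ρ, ρ = μ / c := ⟨_, rfl⟩
  have hcomm : ∀ u, ρ * A u = A (ρ * u) := fun u => by
    have := h3 (u / c)
    rw [mul_div_cancel₀ _ hc] at this
    rw [hρ, div_mul_eq_mul_div, this, mul_div_assoc', div_mul_eq_mul_div]
    field_simp
  by_cases hρF : ∃ f : F, algebraMap F K f = ρ
  · obtain ⟨f, hf⟩ := hρF
    rw [show μ = f • c by rw [Algebra.smul_def, hf, hρ, div_mul_cancel₀ _ hc], smul_mul_assoc,
      map_smul, hj, smul_zero]
  · push Not at hρF
    exact absurd (skew_eq_zero_of_commute hr hp h2 hAskew hρF hcomm) hA0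

/-- The expansion in Galois elements. -/
noncomputable def expand : ((K ≃ₐ[F] K) → K) →ₗ[F] (K →ₗ[F] K) where
  toFun c := ∑ σ, LinearMap.mulLeft F (c σ) ∘ₗ σ.toLinearMap
  map_add' c d := by
    rw [← Finset.sum_add_distrib]
    refine Finset.sum_congr rfl fun σ _ => LinearMap.ext fun x => ?_
    simp [add_mul]
  map_smul' t c := by
    rw [Finset.smul_sum]
    refine Finset.sum_congr rfl fun σ _ => LinearMap.ext fun x => ?_
    simp

lemma expand_apply (c : (K ≃ₐ[F] K) → K) (x : K) : expand c x = ∑ σ, c σ * σ x := by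
  simp [expand, LinearMap.sum_apply]

lemma dedekind {c : (K ≃ₐ[F] K) → K} (h : ∀ x, ∑ σ, c σ * σ x = 0) : c = 0 := by
  have hli := (linearIndependent_toLinearMap F K K).comp (fun σ : K ≃ₐ[F] K => σ.toAlgHom)
    (fun σ τ hst => AlgEquiv.ext fun x => AlgHom.congr_fun hst x)
  refine funext (Fintype.linearIndependent_iff.1 hli c (LinearMap.ext fun x => ?_))
  simpa [LinearMap.sum_apply] using h x

lemma card_aut : Fintype.card (K ≃ₐ[F] K) = finrank F K := by
  haveI := Fintype.ofFinite F
  rw [← Nat.card_eq_fintype_card]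
  exact IsGalois.card_aut_eq_finrank F K

lemma expand_bijective : Function.Bijective (expand (F := F) (K := K)) := by
  have hinj : Function.Injective (expand (F := F) (K := K)) := by
    rw [injective_iff_map_eq_zero]
    intro c hc
    exact dedekind fun x => by rw [← expand_apply, hc, LinearMap.zero_apply]
  refine ⟨hinj, (LinearMap.injective_iff_surjective_of_finrank_eq_finrank ?_).1 hinj⟩
  rw [Module.finrank_pi_fintype, Module.finrank_linearMap, Finset.sum_const, Finset.card_univ,
    card_aut (F := F) (K := K), smul_eq_mul]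

lemma exists_ne_of_ne_one {σ : K ≃ₐ[F] K} (hσ : σ ≠ 1) : ∃ l, σ l ≠ l := by
  by_contra hc
  push Not at hc
  exact hσ (AlgEquiv.ext fun x => by rw [hc x]; rfl)

/-- Subspaces of endomorphisms closed under brackets with the scalars and containing a map which
is not linear over the extension. -/
theorem eq_top_of_lie {r : ℕ} (hr : finrank F K = r) (hp : r.Prime) (h2 : (2 : F) ≠ 0)
    (S : Submodule F (K →ₗ[F] K)) (hmul : ∀ l : K, LinearMap.mulLeft F l ∈ S)
    (hlie : ∀ X ∈ S, ∀ Y ∈ S, X ∘ₗ Y - Y ∘ₗ X ∈ S) {N : K →ₗ[F] K} (hN : N ∈ S)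
    (hNK : ∃ u, N u ≠ u * N 1) : S = ⊤ := by
  classical
  let S' := S.comap (expand (F := F) (K := K))
  have hS' : ∀ c, c ∈ S' ↔ expand c ∈ S := fun c => Iff.rfl
  -- multipliers of the coordinates
  let A : Subalgebra F ((K ≃ₐ[F] K) → K) :=
    { carrier := {w | ∀ c ∈ S', w * c ∈ S'}
      mul_mem' := fun {s t} hs ht c hc => by rw [mul_assoc]; exact hs _ (ht c hc)
      one_mem' := fun c hc => by rwa [one_mul]
      add_mem' := fun {s t} hs ht c hc => by rw [add_mul]; exact S'.add_mem (hs c hc) (ht c hc)
      zero_mem' := fun c hc => by rw [zero_mul]; exact S'.zero_mem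
      algebraMap_mem' := fun f c hc => by rw [← Algebra.smul_def]; exact S'.smul_mem f hc }
  let d : K → (K ≃ₐ[F] K) → K := fun l σ => l - σ l
  have hd : ∀ l, d l ∈ A := by
    intro l c hc
    rw [hS']
    convert hlie _ (hmul l) _ hc using 1
    refine LinearMap.ext fun x => ?_
    simp only [expand_apply, LinearMap.sub_apply, LinearMap.comp_apply, LinearMap.mulLeft_apply,
      Finset.mul_sum, ← Finset.sum_sub_distrib]
    refine Finset.sum_congr rfl fun σ _ => ?_
    simp only [d, Pi.mul_apply, map_mul]
    ring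
  have h2K := two_ne (K := K) h2
  haveI := Subalgebra.isSimpleOrder_of_finrank_prime F K (hr ▸ hp)
  -- each projection is onto
  have hproj : ∀ k : K ≃ₐ[F] K, k ≠ 1 → ∀ t : K, ∃ w ∈ A, w k = t := by
    intro k hk t
    let I : Subalgebra F K := A.map (Pi.evalAlgHom F (fun _ => K) k)
    have hI : I = ⊤ := by
      refine (eq_bot_or_eq_top I).resolve_left fun hbot => ?_
      let φ : K →ₗ[F] K := LinearMap.id - k.toLinearMap
      have hrange : LinearMap.range φ ≤ Submodule.span F {(1 : K)} := by
        rintro _ ⟨l, rfl⟩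
        have : d l k ∈ I := ⟨d l, hd l, rfl⟩
        rw [hbot, Algebra.mem_bot] at this
        obtain ⟨f, hf⟩ := this
        refine Submodule.mem_span_singleton.2 ⟨f, ?_⟩
        rw [← Algebra.algebraMap_eq_smul_one, hf]
        rfl
      have hker : LinearMap.ker φ ≤ Submodule.span F {(1 : K)} := by
        intro l hl
        let Fix : Subalgebra F K := AlgHom.equalizer k.toAlgHom (AlgHom.id F K)
        have hm : l ∈ Fix := by
          show k l = l
          exact (sub_eq_zero.1 hl).symm
        rcases eq_bot_or_eq_top Fix with e | e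
        · rw [e, Algebra.mem_bot] at hm
          obtain ⟨f, rfl⟩ := hm
          rw [Algebra.algebraMap_eq_smul_one]
          exact Submodule.smul_mem _ _ (Submodule.mem_span_singleton_self _)
        · exfalso
          obtain ⟨m, hm⟩ := exists_ne_of_ne_one hk
          exact hm (show m ∈ Fix from e ▸ Algebra.mem_top)
      have e1 := LinearMap.finrank_range_add_finrank_ker φ
      have e2 := Submodule.finrank_mono hrange
      have e3 := Submodule.finrank_mono hker
      rw [finrank_span_singleton one_ne_zero] at e2 e3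
      have hle : r ≤ 2 := by omega
      have hr2 : r = 2 := le_antisymm hle hp.two_le
      obtain ⟨m, hm⟩ := exists_ne_of_ne_one hk
      -- in degree two the difference of a conjugate pair is not in the ground field
      have hmem : d m k ∈ Submodule.span F {(1 : K)} := hrange ⟨m, rfl⟩
      obtain ⟨f, hf⟩ := Submodule.mem_span_singleton.1 hmem
      have hkk : k * k = 1 := by
        have h3 : k ^ Fintype.card (K ≃ₐ[F] K) = 1 := pow_card_eq_one
        rwa [card_aut (F := F) (K := K), hr, hr2, pow_two] at h3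
      have h4 : k (d m k) = d m k := by rw [← hf, map_smul, map_one]
      have h5 : k (k m) = m := by rw [← AlgEquiv.mul_apply, hkk, AlgEquiv.one_apply]
      simp only [d, map_sub, h5] at h4
      exact hm (sub_eq_zero.1 ((mul_eq_zero.1 (show (2 : K) * (k m - m) = 0 by
        linear_combination h4)).resolve_left h2K))
    have : t ∈ I := hI ▸ Algebra.mem_top
    obtain ⟨w, hw, e⟩ := this
    exact ⟨w, hw, e⟩
  -- separation
  have hsep : ∀ i k : K ≃ₐ[F] K, i ≠ 1 → k ≠ i → ∃ w ∈ A, w k = 0 ∧ w i ≠ 0 := by
    intro i k hi hki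
    by_cases hk : k = 1
    · obtain ⟨l, hl⟩ := exists_ne_of_ne_one hi
      exact ⟨d l, hd l, by simp [d, hk], sub_ne_zero.2 (Ne.symm hl)⟩
    by_contra hcon
    push Not at hcon
    choose W hWA hW using hproj k hk
    let Θ : K →ₐ[F] K :=
      { toFun := fun t => W t i
        map_one' := by
          have := hcon (W 1 - 1) (A.sub_mem (hWA 1) A.one_mem) (by simp [hW])
          simpa [sub_eq_zero] using this
        map_mul' := fun s t => by
          have := hcon (W (s * t) - W s * W t) (A.sub_mem (hWA _) (A.mul_mem (hWA _) (hWA _)))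
            (by simp [hW])
          simpa [sub_eq_zero] using this
        map_zero' := by
          have := hcon (W 0) (hWA 0) (by simp [hW])
          simpa using this
        map_add' := fun s t => by
          have := hcon (W (s + t) - (W s + W t)) (A.sub_mem (hWA _) (A.add_mem (hWA _) (hWA _)))
            (by simp [hW])
          simpa [sub_eq_zero] using this
        commutes' := fun f => by
          have := hcon (W (algebraMap F K f) - algebraMap F _ f)
            (A.sub_mem (hWA _) (A.algebraMap_mem f)) (by simp [hW])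
          simpa [sub_eq_zero] using this }
    obtain ⟨j, hj⟩ : ∃ j : K ≃ₐ[F] K, ∀ t, j t = Θ t :=
      ⟨AlgEquiv.ofBijective Θ (Finite.injective_iff_bijective.1 Θ.toRingHom.injective),
        fun t => rfl⟩
    have heq : ∀ l, l - i l = j (l - k l) := by
      intro l
      rw [hj]
      have := hcon (W (l - k l) - d l) (A.sub_mem (hWA _) (hd l)) (by simp [hW, d])
      exact (sub_eq_zero.1 this).symm
    let c : (K ≃ₐ[F] K) → K :=
      Pi.single 1 1 - Pi.single i 1 - Pi.single j 1 + Pi.single (j * k) 1
    have hc : c = 0 := dedekind fun x => by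
      have := heq x
      rw [map_sub] at this
      simp only [c, Pi.add_apply, Pi.sub_apply, add_mul, sub_mul, Finset.sum_add_distrib,
        Finset.sum_sub_distrib, Pi.single_apply, ite_mul, one_mul, zero_mul, Finset.sum_ite_eq',
        Finset.mem_univ, if_true, AlgEquiv.one_apply, AlgEquiv.mul_apply]
      linear_combination this
    have h1 := congrFun hc i
    have h0 := congrFun hc 1
    simp only [c, Pi.add_apply, Pi.sub_apply, Pi.single_apply, Pi.zero_apply, if_true, if_neg hi,
      if_neg hi.symm] at h1 h0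
    by_cases hji : i = j
    · subst hji
      have hne : i ≠ i * k := fun e => hk (by simpa using e.symm)
      rw [if_pos rfl, if_neg hne] at h1
      exact h2K (by linear_combination -h1)
    · rw [if_neg hji] at h1
      by_cases hjk : i = j * k
      · by_cases hj1 : (1 : K ≃ₐ[F] K) = j
        · rw [← hj1, one_mul] at hjk
          exact hki hjk.symm
        · rw [if_neg hj1, if_neg (fun e : (1 : K ≃ₐ[F] K) = j * k => hi (hjk.trans e.symm))] at h0
          exact one_ne_zero (α := K) (by linear_combination h0)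
      · rw [if_neg hjk] at h1
        exact one_ne_zero (α := K) (by linear_combination -h1)
  -- indicators
  haveI := Fintype.ofFinite K
  have hind : ∀ i : K ≃ₐ[F] K, i ≠ 1 → Pi.single i 1 ∈ A := by
    intro i hi
    choose w hwA hwk hwi using fun k : {k : K ≃ₐ[F] K // k ≠ i} => hsep i k.1 hi k.2
    let p := ∏ k, w k
    have hp' : p ∈ A := A.prod_mem fun k _ => hwA k
    have hpk : ∀ k, k ≠ i → p k = 0 := fun k hk => by
      simp only [p, Finset.prod_apply]
      exact Finset.prod_eq_zero (Finset.mem_univ (⟨k, hk⟩ : {k : K ≃ₐ[F] K // k ≠ i})) (hwk _)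
    have hpi : p i ≠ 0 := by
      simp only [p, Finset.prod_apply]
      exact Finset.prod_ne_zero_iff.2 fun k _ => hwi k
    have hQ : Fintype.card K - 1 ≠ 0 := by
      have := Fintype.one_lt_card (α := K)
      omega
    convert A.pow_mem hp' (Fintype.card K - 1) using 1
    ext k
    rw [Pi.pow_apply]
    by_cases hk : k = i
    · subst hk
      rw [Pi.single_eq_same, FiniteField.pow_card_sub_one_eq_one _ hpi]
    · rw [Pi.single_eq_of_ne hk, hpk k hk, zero_pow hQ]
  -- coordinates
  have hline : ∀ i : K ≃ₐ[F] K, i ≠ 1 → ∀ c ∈ S', c i ≠ 0 → ∀ t, Pi.single i t ∈ S' := by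
    intro i hi c hc hci t
    obtain ⟨w, hw, hwi⟩ := hproj i hi (t / c i)
    have := hind i hi (w * c) (hw c hc)
    convert this using 1
    ext k
    by_cases hk : k = i
    · subst hk
      simp [hwi, div_mul_cancel₀ _ hci]
    · simp [Pi.single_eq_of_ne hk]
  have hone : ∀ t, Pi.single (1 : K ≃ₐ[F] K) t ∈ S' := fun t => by
    rw [hS']
    convert hmul t using 1
    refine LinearMap.ext fun x => ?_
    simp [expand_apply, Pi.single_apply, ite_mul]
  obtain ⟨c, rfl⟩ := (expand_bijective (F := F) (K := K)).2 N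
  obtain ⟨i, hi, hci⟩ : ∃ i, i ≠ 1 ∧ c i ≠ 0 := by
    by_contra hcon
    push Not at hcon
    obtain ⟨u, hu⟩ := hNK
    have : ∀ x, expand c x = c 1 * x := fun x => by
      rw [expand_apply, Finset.sum_eq_single (1 : K ≃ₐ[F] K)
        (fun σ _ hσ => by rw [hcon σ hσ, zero_mul]) (by simp), AlgEquiv.one_apply]
    exact hu (by rw [this, this]; ring)
  have hcS : c ∈ S' := hN
  have hall : ∀ n : ℕ, ∀ t, Pi.single (i ^ n) t ∈ S' := by
    intro n
    induction n with
    | zero => simpa using hone
    | succ n ih =>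
      by_cases h1 : i ^ (n + 1) = 1
      · rw [h1]; exact hone
      by_cases hn1 : i ^ n = 1
      · rw [pow_succ, hn1, one_mul]
        exact hline i hi c hcS hci
      obtain ⟨m, hm⟩ := exists_ne_of_ne_one hn1
      have hb : Pi.single (i ^ (n + 1)) ((i ^ n) m - m) ∈ S' := by
        rw [hS']
        have hX := ih 1
        have hY := hline i hi c hcS hci m
        convert hlie _ hX _ hY using 1
        refine LinearMap.ext fun x => ?_
        simp only [LinearMap.sub_apply, LinearMap.comp_apply, expand_apply, Pi.single_apply,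
          ite_mul, zero_mul, Finset.sum_ite_eq', Finset.mem_univ, if_true, one_mul, map_mul]
        rw [show (i ^ (n + 1)) x = (i ^ n) (i x) by rw [pow_succ, AlgEquiv.mul_apply],
          show i ((i ^ n) x) = (i ^ n) (i x) by
            rw [← AlgEquiv.mul_apply, ← pow_succ', pow_succ, AlgEquiv.mul_apply]]
        ring
      exact hline _ h1 _ hb (by rw [Pi.single_eq_same]; exact sub_ne_zero.2 hm)
  have hcard : Nat.card (K ≃ₐ[F] K) = r := by rw [Nat.card_eq_fintype_card, card_aut (F := F) (K := K), hr]
  haveI := Fact.mk hp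
  have hgen := zpowers_eq_top_of_prime_card hcard hi
  refine eq_top_iff.2 fun X _ => ?_
  obtain ⟨e, rfl⟩ := (expand_bijective (F := F) (K := K)).2 X
  show e ∈ S'
  rw [← Finset.univ_sum_single e]
  refine Submodule.sum_mem _ fun σ _ => ?_
  have hσ : σ ∈ Subgroup.zpowers i := hgen ▸ Subgroup.mem_top σ
  obtain ⟨n, rfl⟩ := (mem_powers_iff_mem_zpowers.2 hσ)
  exact hall n _

/-- The maps under which an invariant subspace is infinitesimally stable. -/
noncomputable def derivSpace (O : Submodule F (K →ₗ[F] K)) : Submodule F (K →ₗ[F] K) where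
  carrier := {X | ∀ B ∈ O, X ∘ₗ B + B ∘ₗ adj X ∈ O}
  add_mem' {X Y} hX hY B hB := by
    have := O.add_mem (hX B hB) (hY B hB)
    convert this using 1
    rw [adj_add, LinearMap.add_comp, LinearMap.comp_add]
    abel
  zero_mem' B hB := by simp [adj_zero]
  smul_mem' t X hX B hB := by
    have := O.smul_mem t (hX B hB)
    convert this using 1
    rw [adj_smul, LinearMap.smul_comp, LinearMap.comp_smul, smul_add]

/-- A scaled and transvection invariant subspace contains all maps of rank two. -/
theorem sk_mem_of_invariant {r : ℕ} (hr : finrank F K = r) (hp : r.Prime) (h2 : (2 : F) ≠ 0)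
    {O : Submodule F (K →ₗ[F] K)} (hskew : ∀ B ∈ O, Skew B)
    (hscal : ∀ B ∈ O, ∀ l : K, scaled l B ∈ O) {A : K →ₗ[F] K} (hA : A ∈ O) (hA0 : A ≠ 0)
    {N : K →ₗ[F] K} (hN0 : N ≠ 0) (hNN : ∀ u, N (N u) = 0)
    (hplus : ∀ B ∈ O, (LinearMap.id + N) ∘ₗ B ∘ₗ adj (LinearMap.id + N) ∈ O)
    (hminus : ∀ B ∈ O, (LinearMap.id - N) ∘ₗ B ∘ₗ adj (LinearMap.id - N) ∈ O) (a b : K) :
    sk a b ∈ O := by
  have hhalf : ∀ X : K →ₗ[F] K, (2 : F) • X ∈ O → X ∈ O := fun X hX => by
    simpa [smul_smul, inv_mul_cancel₀ h2] using O.smul_mem (2 : F)⁻¹ hX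
  have hmul : ∀ l : K, LinearMap.mulLeft F l ∈ derivSpace O := by
    intro l B hB
    have h := O.sub_mem (O.sub_mem (hscal B hB (1 + l)) (hscal B hB l)) hB
    convert h using 1
    refine LinearMap.ext fun x => ?_
    simp only [LinearMap.sub_apply, LinearMap.add_apply, LinearMap.comp_apply, scaled_apply,
      adj_mul, LinearMap.mulLeft_apply, add_mul, one_mul, map_add]
    ring
  have hN : N ∈ derivSpace O := by
    intro B hB
    refine hhalf _ ?_
    have h := O.sub_mem (hplus B hB) (hminus B hB)
    convert h using 1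
    rw [adj_add, adj_sub, adj_id]
    refine LinearMap.ext fun x => ?_
    simp only [LinearMap.smul_apply, LinearMap.add_apply, LinearMap.sub_apply,
      LinearMap.comp_apply, LinearMap.id_apply, map_add, map_sub]
    module
  have hlie : ∀ X ∈ derivSpace O, ∀ Y ∈ derivSpace O, X ∘ₗ Y - Y ∘ₗ X ∈ derivSpace O := by
    intro X hX Y hY B hB
    have h := O.sub_mem (hX _ (hY B hB)) (hY _ (hX B hB))
    convert h using 1
    rw [adj_sub, adj_comp, adj_comp]
    refine LinearMap.ext fun x => ?_
    simp only [LinearMap.add_apply, LinearMap.sub_apply, LinearMap.comp_apply, map_add, map_sub]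
    abel
  have hNK : ∃ u, N u ≠ u * N 1 := by
    by_contra hc
    push Not at hc
    have h1 : N 1 = 0 := by
      have := hNN 1
      rw [hc (N 1)] at this
      exact mul_self_eq_zero.1 this
    exact hN0 (LinearMap.ext fun u => by rw [hc, h1, mul_zero, LinearMap.zero_apply])
  have htop := eq_top_of_lie hr hp h2 (derivSpace O) hmul hlie hN hNK
  have hX : ∀ v φ : K, sk v (A φ) ∈ O := by
    intro v φ
    have h := (htop ▸ Submodule.mem_top : rankOne (F := F) φ v ∈ derivSpace O) A hA
    convert h using 1
    rw [adj_rankOne]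
    refine LinearMap.ext fun c => ?_
    simp only [LinearMap.add_apply, LinearMap.comp_apply, rankOne,
      LinearMap.smulRight_apply, LinearMap.mulLeft_apply, map_smul, sk_apply]
    rw [(hskew A hA).polar φ c, mul_comm (A φ) c, neg_smul]
    abel
  obtain ⟨φ, hφ⟩ : ∃ φ, A φ ≠ 0 := by
    by_contra hc
    push Not at hc
    exact hA0 (LinearMap.ext hc)
  by_cases hb : b = 0
  · subst hb
    convert O.zero_mem
    refine LinearMap.ext fun c => ?_
    simp [sk_apply]
  have hl0 : b / A φ ≠ 0 := div_ne_zero hb hφ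
  have := hscal _ (hX (a / (b / A φ)) φ) (b / A φ)
  convert this using 1
  refine LinearMap.ext fun c => ?_
  simp only [scaled_apply, sk_apply, mul_sub, mul_smul_comm]
  rw [div_mul_cancel₀ _ hφ, mul_div_cancel₀ _ hl0, ← mul_assoc (a / (b / A φ)) (b / A φ) c,
    div_mul_cancel₀ _ hl0, ← mul_assoc (A φ) (b / A φ) c, mul_div_cancel₀ _ hφ]

end Cfsg.Agent.MaxSub.OrthExt3
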