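import Cfsg.Agent.MaxSub.OrthExt3.Algebra
import Cfsg.Agent.MaxSub.ExtField.Pair
import Cfsg.Agent.MaxSub.OrthOverfield.Main
import Cfsg.Agent.Forms.OmegaCrit
import Cfsg.Agent.GeoClasses.OrthNondeg

/-!
Orthogonal spaces of dimension three over an extension field, seen over the ground field: frames,
Eichler maps over the extension and the isometries they give.
-/

set_option autoImplicit false
set_option linter.style.haveILetI false
set_option linter.unusedSectionVars false

namespace Cfsg.Agent.MaxSub.OrthExt3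

open QuadraticMap Module Cfsg.Agent.Classical Cfsg.Agent.MaxSub.ExtField

universe u v w

variable {F : Type u} {K : Type w} {V : Type v} [Field F] [Field K] [Algebra F K] [AddCommGroup V]
  [Module F V] [Module K V] [IsScalarTower F K V]

/-- A symmetric `K`-form in dimension three whose trace is the polar form of `Q`, and a group
between the squares of its isometries and the commutator subgroup. -/
structure Setup (Q : QuadraticForm F V) (h : LinearMap.BilinForm K V) (M : Subgroup (OQ Q)) :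
    Prop where
  two : (2 : F) ≠ 0
  symm : ∀ u v, h u v = h v u
  tr : ∀ u v, polar Q u v = Algebra.trace F K (h u v)
  nondeg : ∀ v, (∀ u, h u v = 0) → v = 0
  lin : ∀ g : OQ Q, (∀ (c : K) x, g.1 (c • x) = c • g.1 x) → g * g ∈ M
  le_comm : M ≤ commutator (OQ Q)
  dim : finrank K V = 3
  prime : (finrank F K).Prime
  five : 5 ≤ finrank F K

/-- A hyperbolic pair and a vector orthogonal to it. -/
structure Frame (h : LinearMap.BilinForm K V) (y b q : V) : Prop where
  yy : h y y = 0
  qq : h q q = 0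
  yb : h y b = 0
  qb : h q b = 0
  yq : h y q = 1
  bb : h b b ≠ 0

/-- The Eichler map over `K`. -/
noncomputable def eich (h : LinearMap.BilinForm K V) (y b : V) : V →ₗ[K] V :=
  LinearMap.id + (h.flip y).smulRight b - (h.flip b + (h b b / 2) • h.flip y).smulRight y

lemma eich_apply (h : LinearMap.BilinForm K V) (y b x : V) :
    eich h y b x = x + h x y • b - (h x b + h b b / 2 * h x y) • y := rfl

/-- The quadratic form over `K`. -/
noncomputable def qK (h : LinearMap.BilinForm K V) : QuadraticForm K V :=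
  LinearMap.BilinMap.toQuadraticMap h

lemma qK_apply (h : LinearMap.BilinForm K V) (x : V) : qK h x = h x x := rfl

/-- The image of a line. -/
abbrev img (K : Type w) [Field K] [Algebra F K] [Module K V] [IsScalarTower F K V]
    {Q : QuadraticForm F V} (g : OQ Q) (w : V) : Submodule F V :=
  (kline F K w).map g.1.toLinearMap

@[simp] lemma inv_val {Q : QuadraticForm F V} (g : OQ Q) : (g⁻¹).1 = g.1.symm := rfl

@[simp] lemma inv_val' (g : V ≃ₗ[F] V) : g⁻¹ = g.symm := rfl

lemma mul_val {Q : QuadraticForm F V} (g g' : OQ Q) (x : V) : (g * g').1 x = g.1 (g'.1 x) := rfl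

lemma mem_img {Q : QuadraticForm F V} {g : OQ Q} {w v : V} :
    v ∈ img K g w ↔ g.1.symm v ∈ kline F K w := by
  constructor
  · rintro ⟨a, ha, rfl⟩
    simpa using ha
  · exact fun hv => ⟨_, hv, g.1.apply_symm_apply v⟩

lemma apply_mem_img {Q : QuadraticForm F V} {g : OQ Q} {w a : V} (ha : a ∈ kline F K w) :
    g.1 a ∈ img K g w :=
  Submodule.mem_map_of_mem ha

lemma finrank_img {Q : QuadraticForm F V} {g : OQ Q} {w : V} (hw : w ≠ 0) :
    finrank F (img K g w) = finrank F K := by
  rw [img, LinearEquiv.finrank_map_eq, finrank_kline hw]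

variable [FiniteDimensional F K] [FiniteDimensional F V] [FiniteDimensional K V] [Finite F]
  [Finite K] {Q : QuadraticForm F V} {h : LinearMap.BilinForm K V} {M : Subgroup (OQ Q)}

namespace Setup

variable (hS : Setup Q h M)
include hS

lemma twoK : (2 : K) ≠ 0 := two_ne hS.two

lemma polar_smul (c : K) (u v : V) :
    polar Q (c • u) v = Algebra.trace F K (c * h u v) := by
  rw [hS.tr, map_smul, LinearMap.smul_apply, smul_eq_mul]

lemma polar_smul' (c : K) (u v : V) :
    polar Q u (c • v) = Algebra.trace F K (c * h u v) := by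
  rw [polar_comm, hS.polar_smul, hS.symm]

lemma two_mul_Q (x : V) : 2 * Q x = Algebra.trace F K (h x x) := by
  rw [← hS.tr, polar_self, two_nsmul, two_mul]

lemma sing_Q {x : V} (hx : h x x = 0) : Q x = 0 := by
  have := hS.two_mul_Q x
  rw [hx, map_zero] at this
  exact (mul_eq_zero.1 this).resolve_left hS.two

omit hS in
lemma sing_smul {x : V} (hx : h x x = 0) (c : K) : h (c • x) (c • x) = 0 := by simp [hx]

omit hS in
lemma pair_kline {x y : V} (hxy : h x y = 0) {v : V} (hv : v ∈ kline F K y) : h x v = 0 := by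
  obtain ⟨c, rfl⟩ := mem_kline.1 hv
  simp [hxy]

lemma h_eq_zero {u v : V} (huv : ∀ c : K, polar Q (c • u) v = 0) : h u v = 0 :=
  ext_trace (F := F) fun t => by rw [mul_zero, map_zero, ← hS.polar_smul, huv]

lemma bnondeg : BNondeg Q := fun x hx => hS.nondeg x fun u => by
  rw [hS.symm]
  exact hS.h_eq_zero fun c => by rw [hS.polar_smul, ← hS.polar_smul', hx]

lemma finrank_F : finrank F V = 3 * finrank F K := by
  rw [← Module.finrank_mul_finrank F K V, hS.dim, mul_comm]

lemma notExceptional : OrthGen.NotExceptional Q :=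
  GeoClasses.notExceptional_five (by have := hS.finrank_F; have := hS.five; omega)

lemma finiteV : Finite V := Module.finite_of_finite F

lemma finiteOQ : Finite (OQ Q) :=
  haveI := hS.finiteV
  Finite.of_injective (fun g : OQ Q => (g.1 : V → V)) fun _ _ e =>
    Subtype.ext (LinearEquiv.ext fun x => congrFun e x)

lemma exists_pair_one {y : V} (hy : y ≠ 0) : ∃ p, h y p = 1 := by
  obtain ⟨u, hu⟩ : ∃ u, h u y ≠ 0 := by
    by_contra hc
    push Not at hc
    exact hy (hS.nondeg y hc)
  exact ⟨(h y u)⁻¹ • u, by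
    rw [map_smul, smul_eq_mul, inv_mul_cancel₀ (by rw [hS.symm]; exact hu)]⟩

lemma exists_partner {y : V} (hy : y ≠ 0) (hyy : h y y = 0) :
    ∃ q, h q q = 0 ∧ h y q = 1 := by
  obtain ⟨p, hp⟩ := hS.exists_pair_one hy
  refine ⟨p - (h p p / 2) • y, ?_, by simp [hp, hyy]⟩
  have h2 := hS.twoK
  simp only [map_sub, map_smul, LinearMap.sub_apply, LinearMap.smul_apply, smul_eq_mul, hS.symm p y,
    hp, hyy]
  field_simp
  ring

/-- An anisotropic vector orthogonal to a hyperbolic pair. -/
lemma exists_anisotropic_perp_two {y q : V} (hy : h y y = 0) (hq : h q q = 0) (hyq : h y q = 1) :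
    ∃ b, h y b = 0 ∧ h q b = 0 ∧ h b b ≠ 0 := by
  by_contra hc
  push Not at hc
  have hqy : h q y = 1 := by rw [hS.symm, hyq]
  obtain ⟨u, hu⟩ : ∃ u, u ∉ Submodule.span K {y, q} := by
    by_contra hall
    push Not at hall
    classical
    have e : Submodule.span K {y, q} = ⊤ := Submodule.eq_top_iff'.2 hall
    have h0 := finrank_span_finset_le_card (R := K) ({y, q} : Finset V)
    unfold Set.finrank at h0
    rw [Finset.coe_pair, e, finrank_top, hS.dim] at h0
    have := Finset.card_le_two (a := y) (b := q)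
    omega
  have hproj : ∀ x, h y (x - h q x • y - h y x • q) = 0 ∧ h q (x - h q x • y - h y x • q) = 0 :=
    fun x => ⟨by simp [hy, hyq], by simp [hq, hqy]⟩
  obtain ⟨b, hb⟩ : ∃ b, b = u - h q u • y - h y u • q := ⟨_, rfl⟩
  have hb0 : b ≠ 0 := fun e => hu (by
    rw [hb, sub_sub, sub_eq_zero] at e
    exact Submodule.mem_span_pair.2 ⟨_, _, e.symm⟩)
  refine hb0 (hS.nondeg b fun x => ?_)
  obtain ⟨hby, hbq⟩ : h y b = 0 ∧ h q b = 0 := hb ▸ hproj u
  obtain ⟨x', hx'⟩ : ∃ x', x' = x - h q x • y - h y x • q := ⟨_, rfl⟩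
  obtain ⟨hxy, hxq⟩ : h y x' = 0 ∧ h q x' = 0 := hx' ▸ hproj x
  have e1 : h x b = h x' b := by simp [hx', hby, hbq]
  rw [e1]
  have e := hc (x' + b) (by simp [hxy, hby]) (by simp [hxq, hbq])
  simp only [map_add, LinearMap.add_apply, hc x' hxy hxq, hc b hby hbq, hS.symm b x',
    zero_add, add_zero] at e
  exact (mul_eq_zero.1 (show (2 : K) * h x' b = 0 by linear_combination e)).resolve_left hS.twoK

lemma exists_frame {y : V} (hy : y ≠ 0) (hyy : h y y = 0) : ∃ b q, Frame h y b q := by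
  obtain ⟨q, hqq, hyq⟩ := hS.exists_partner hy hyy
  obtain ⟨b, hyb, hqb, hbb⟩ := hS.exists_anisotropic_perp_two hyy hqq hyq
  exact ⟨b, q, hyy, hqq, hyb, hqb, hyq, hbb⟩

end Setup

namespace Frame

variable {y b q : V} (hf : Frame h y b q) (hS : Setup Q h M)
include hf hS

lemma qy : h q y = 1 := by rw [hS.symm, hf.yq]

lemma b_y : h b y = 0 := by rw [hS.symm, hf.yb]

lemma bq : h b q = 0 := by rw [hS.symm, hf.qb]

omit hS in
lemma y_ne : y ≠ 0 := fun e => by simpa [e] using hf.yq

omit hS in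
lemma q_ne : q ≠ 0 := fun e => by simpa [e] using hf.yq

lemma symm' : Frame h q b y :=
  ⟨hf.qq, hf.yy, hf.qb, hf.yb, hf.qy hS, hf.bb⟩

lemma smul_b {k : K} (hk : k ≠ 0) : Frame h y (k • b) q :=
  ⟨hf.yy, hf.qq, by simp [hf.yb], by simp [hf.qb], hf.yq, by
    simp only [map_smul, LinearMap.smul_apply, smul_eq_mul]
    exact mul_ne_zero hk (mul_ne_zero hk hf.bb)⟩

/-- The coordinates. -/
lemma expand_vec (v : V) : v = h q v • y + (h b v / h b b) • b + h y v • q := by
  classical
  have hli : LinearIndependent K ![y, b, q] := by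
    rw [Fintype.linearIndependent_iff]
    intro g hg
    simp only [Fin.sum_univ_three, Matrix.cons_val_zero, Matrix.cons_val_one,
      Matrix.cons_val_two, Matrix.tail_cons, Matrix.head_cons] at hg
    have h1 := congrArg (h q) hg
    have h2 := congrArg (h b) hg
    have h3 := congrArg (h y) hg
    simp [hf.qy hS, hf.qb, hf.qq] at h1
    simp [hf.b_y hS, hf.bq hS, hf.bb] at h2
    simp [hf.yy, hf.yb, hf.yq] at h3
    intro i
    fin_cases i <;> assumption
  have hspan := hli.span_eq_top_of_card_eq_finrank (by rw [Fintype.card_fin, hS.dim])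
  refine sub_eq_zero.1 (hS.nondeg _ fun u => ?_)
  have hu : u ∈ Submodule.span K (Set.range ![y, b, q]) := hspan ▸ Submodule.mem_top
  induction hu using Submodule.span_induction with
  | mem x hx =>
    obtain ⟨i, rfl⟩ := hx
    fin_cases i
    · simp [hf.yy, hf.yb, hf.yq]
    · simp [hf.b_y hS, hf.bq hS, div_mul_cancel₀ _ hf.bb]
    · simp [hf.qy hS, hf.qb, hf.qq]
  | zero => simp
  | add x z _ _ hx hz => rw [map_add, LinearMap.add_apply, hx, hz, add_zero]
  | smul c x _ hx => rw [map_smul, LinearMap.smul_apply, hx, smul_zero]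

lemma ext_coords {u v : V} (h1 : h q u = h q v) (h2 : h b u = h b v) (h3 : h y u = h y v) :
    u = v := by rw [hf.expand_vec hS u, h1, h2, h3, ← hf.expand_vec hS v]

lemma perp_eq {v : V} (hv : h y v = 0) : v = h q v • y + (h b v / h b b) • b := by
  have := hf.expand_vec hS v
  rwa [hv, zero_smul, add_zero] at this

lemma mem_kline_iff {v : V} : v ∈ kline F K y ↔ h y v = 0 ∧ h b v = 0 := by
  constructor
  · intro hv
    obtain ⟨c, rfl⟩ := mem_kline.1 hv
    simp [hf.yy, hf.b_y hS]
  · rintro ⟨h1, h2⟩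
    exact mem_kline.2 ⟨h q v, by
      conv_rhs => rw [hf.perp_eq hS h1, h2, zero_div, zero_smul, add_zero]⟩

lemma mem_kline_of_sing {v : V} (hv : h y v = 0) (hvv : h v v = 0) : v ∈ kline F K y := by
  refine (hf.mem_kline_iff hS).2 ⟨hv, ?_⟩
  have e := hf.perp_eq hS hv
  have e2 : h v v = h b v * h b v / h b b := by
    nth_rewrite 2 [e]
    rw [map_add, map_smul, map_smul, hS.symm v y, hv, hS.symm v b, smul_zero, zero_add,
      smul_eq_mul, div_mul_eq_mul_div]
  rw [hvv, eq_comm, div_eq_zero_iff] at e2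
  exact mul_self_eq_zero.1 (e2.resolve_right hf.bb)

end Frame

namespace Setup

variable (hS : Setup Q h M)
include hS

lemma eich_add {y a b : V} (hy : h y y = 0) (ha : h y a = 0) (hb : h y b = 0) (x : V) :
    eich h y a (eich h y b x) = eich h y (a + b) x := by
  have h2 := hS.twoK
  simp only [eich_apply, map_add, map_sub, map_smul, LinearMap.add_apply, LinearMap.sub_apply,
    LinearMap.smul_apply, smul_eq_mul, hy, hb, hS.symm b y, hS.symm a y, ha,
    hS.symm a b]
  match_scalars <;> (field_simp; try ring)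

lemma eich_iso {y b : V} (hy : h y y = 0) (hb : h y b = 0) (u v : V) :
    h (eich h y b u) (eich h y b v) = h u v := by
  have h2 := hS.twoK
  simp only [eich_apply, map_add, map_sub, map_smul, LinearMap.add_apply, LinearMap.sub_apply,
    LinearMap.smul_apply, smul_eq_mul, hy, hb, hS.symm b y, hS.symm y v,
    hS.symm b v]
  field_simp
  ring

lemma exists_iso {f : V ≃ₗ[K] V} (hf : ∀ u v, h (f u) (f v) = h u v) :
    ∃ g : OQ Q, ∀ x, g.1 x = f x := by
  refine ⟨⟨f.restrictScalars F, fun v => ?_⟩, fun x => rfl⟩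
  refine mul_left_cancel₀ hS.two ?_
  rw [hS.two_mul_Q, hS.two_mul_Q]
  show Algebra.trace F K (h (f v) (f v)) = _
  rw [hf]

lemma exists_eich {y b : V} (hy : h y y = 0) (hb : h y b = 0) :
    ∃ g : OQ Q, g ∈ M ∧ ∀ x, g.1 x = eich h y b x := by
  have hb' : h y ((2 : K)⁻¹ • b) = 0 := by simp [hb]
  let c := (2 : K)⁻¹ • b
  have hid : ∀ d : V, h y d = 0 → ∀ x, eich h y d (eich h y (-d) x) = x := fun d hd x => by
    rw [hS.eich_add hy hd (by simp [hd]), add_neg_cancel]
    simp [eich_apply]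
  let f : V ≃ₗ[K] V := LinearEquiv.ofLinearMap (eich h y c) (eich h y (-c))
    (LinearMap.ext fun x => hid c hb' x)
    (LinearMap.ext fun x => by
      have := hid (-c) (by simp [c, hb]) x
      rwa [neg_neg] at this)
  obtain ⟨g, hg⟩ := hS.exists_iso (f := f) (hS.eich_iso hy hb')
  refine ⟨g * g, hS.lin g fun k x => by rw [hg, hg]; exact map_smul f k x, fun x => ?_⟩
  rw [Subgroup.coe_mul, LinearEquiv.mul_apply, hg, hg]
  show eich h y c (eich h y c x) = _
  rw [hS.eich_add hy hb' hb', show c + c = b by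
    rw [← add_smul, show (2 : K)⁻¹ + 2⁻¹ = 1 by field_simp [hS.twoK]; ring, one_smul]]

lemma eich_smul_y {y b : V} (hy : h y y = 0) (hb : h y b = 0) (t : K) :
    eich h y b (t • y) = t • y := by
  rw [eich_apply]
  simp [hy, hb]

lemma eich_h_y {y b : V} (hy : h y y = 0) (hb : h y b = 0) (x : V) :
    h y (eich h y b x) = h y x := by
  simp [eich_apply, hy, hb]

/-- A singular vector orthogonal to neither of two non-orthogonal ones. -/
lemma exists_sing_nonorth_two {y y' : V} (hy0 : y ≠ 0) (hy : h y y = 0) (hy'0 : y' ≠ 0)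
    (hy' : h y' y' = 0) : ∃ p, h p p = 0 ∧ h p y ≠ 0 ∧ h p y' ≠ 0 := by
  obtain ⟨b₀, q₀, hf⟩ := hS.exists_frame hy0 hy
  by_cases hyy : h y y' = 0
  · obtain ⟨c, rfl⟩ := mem_kline.1 (hf.mem_kline_of_sing hS hyy hy')
    have hc : c ≠ 0 := fun e => hy'0 (by rw [e, zero_smul])
    exact ⟨q₀, hf.qq, by rw [hf.qy hS]; exact one_ne_zero, by simp [hf.qy hS, hc]⟩
  obtain ⟨q, hq⟩ : ∃ q, q = (h y y')⁻¹ • y' := ⟨_, rfl⟩
  have hyq : h y q = 1 := by simp [hq, inv_mul_cancel₀ hyy]
  have hqq : h q q = 0 := by simp [hq, hy']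
  obtain ⟨b, hyb, hqb, hbb⟩ := hS.exists_anisotropic_perp_two hy hqq hyq
  have hf' : Frame h y b q := ⟨hy, hqq, hyb, hqb, hyq, hbb⟩
  have h2 := hS.twoK
  refine ⟨y + b - (h b b / 2) • q, ?_, ?_, ?_⟩
  · simp only [map_add, map_sub, map_smul, LinearMap.add_apply, LinearMap.sub_apply,
      LinearMap.smul_apply, smul_eq_mul, hy, hyb, hyq, hqq, hqb, hf'.qy hS, hf'.b_y hS, hf'.bq hS]
    field_simp
    ring
  · simp [hy, hf'.b_y hS, hf'.qy hS, hbb, h2]
  · have e : y' = h y y' • q := by rw [hq, smul_smul, mul_inv_cancel₀ hyy, one_smul]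
    rw [e]
    simp [hyy, hf'.bq hS, hqq, hyq]

/-- Any singular line is carried to any other one inside `M`, linearly over `K`. -/
lemma exists_move {y y' : V} (hy0 : y ≠ 0) (hy : h y y = 0) (hy'0 : y' ≠ 0)
    (hy' : h y' y' = 0) : ∃ E ∈ M, ∃ κ : K, κ ≠ 0 ∧ (∀ (c : K) x, E.1 (c • x) = c • E.1 x) ∧
      (∀ u v, h (E.1 u) (E.1 v) = h u v) ∧ E.1 y = κ • y' := by
  obtain ⟨p, hpp, hpy, hpy'⟩ := hS.exists_sing_nonorth_two hy0 hy hy'0 hy'
  obtain ⟨κ, hκ⟩ : ∃ κ, κ = h p y / h p y' := ⟨_, rfl⟩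
  obtain ⟨p', hp'⟩ : ∃ p', p' = (h p y)⁻¹ • p := ⟨_, rfl⟩
  have h1 : h p' y = 1 := by simp [hp', inv_mul_cancel₀ hpy]
  have h2 : h p' (κ • y') = 1 := by
    rw [map_smul, hp', map_smul, LinearMap.smul_apply, hκ, smul_eq_mul, smul_eq_mul]
    field_simp
  have hp'p : h p' p' = 0 := by simp [hp', hpp]
  have hb : h p' (κ • y' - y) = 0 := by rw [map_sub, h1, h2, sub_self]
  obtain ⟨E, hEM, hE⟩ := hS.exists_eich hp'p hb
  refine ⟨E, hEM, κ, hκ ▸ div_ne_zero hpy hpy', fun c x => by rw [hE, hE, map_smul],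
    fun u v => by rw [hE, hE, hS.eich_iso hp'p hb], ?_⟩
  rw [hE, eich_apply, hS.symm y p', h1, one_smul]
  have h3 := hS.twoK
  simp only [map_sub, LinearMap.sub_apply, map_smul, LinearMap.smul_apply, hy, hy', hS.symm y' y,
    smul_eq_mul]
  match_scalars <;> (field_simp; try ring)

lemma polar_img {g : OQ Q} {w u v : V} (hw : h w w = 0) (hu : u ∈ img K g w)
    (hv : v ∈ img K g w) : polar Q u v = 0 := by
  obtain ⟨a, ha, rfl⟩ := hu
  obtain ⟨b, hb, rfl⟩ := hv
  obtain ⟨c, rfl⟩ := mem_kline.1 ha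
  obtain ⟨d, rfl⟩ := mem_kline.1 hb
  show polar Q (g.1 (c • w)) (g.1 (d • w)) = 0
  rw [OQ_polar, hS.tr]
  simp [hw]

end Setup

end Cfsg.Agent.MaxSub.OrthExt3
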