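import Cfsg.Agent.MaxSub.OrthExt3.Stab
import Cfsg.Agent.Coprime.Generation
import Mathlib.GroupTheory.Transfer

/-!
When no skew map gives elements of the overgroup, two different members meet in at most a line
over the ground field.
-/

set_option autoImplicit false
set_option linter.style.haveILetI false
set_option linter.unusedSectionVars false

namespace Cfsg.Agent.MaxSub.OrthExt3

open QuadraticMap Module Cfsg.Agent.Classical Cfsg.Agent.MaxSub.ExtField

universe u v w

variable {F : Type u} {K : Type w} {V : Type v} [Field F] [Field K] [Algebra F K] [AddCommGroup V]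
  [Module F V] [Module K V] [IsScalarTower F K V] [FiniteDimensional F K] [FiniteDimensional F V]
  [FiniteDimensional K V] [Finite F] [Finite K]
  {Q : QuadraticForm F V} {h : LinearMap.BilinForm K V} {M : Subgroup (OQ Q)}

namespace Setup

variable (hS : Setup Q h M)
include hS

lemma eich_fixed_iff {y b q : V} (hf : Frame h y b q) {δ : K} (hδ : δ ≠ 0) {x : V} :
    eich h y (δ • b) x = x ↔ x ∈ kline F K y := by
  constructor
  · intro hx
    have h1 := congrArg (h b) hx
    have h2 := congrArg (h q) hx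
    simp [eich_apply, hf.b_y hS, hf.bb, hδ] at h1
    simp [eich_apply, hf.qb, hf.qy hS, h1, hδ] at h2
    refine (hf.mem_kline_iff hS).2 ⟨by rw [hS.symm, h1], ?_⟩
    rw [hS.symm]
    exact h2
  · intro hx
    obtain ⟨t, rfl⟩ := mem_kline.1 hx
    exact hS.eich_smul_y hf.yy (by simp [hf.yb]) t

lemma map_line_of_forall {a : OQ Q} {y : V}
    (hL : ∀ t : K, a.1 (t • y) ∈ kline F K y) : img K a y = kline F K y := by
  refine Submodule.eq_of_le_of_finrank_eq ?_ (LinearEquiv.finrank_map_eq _ _)
  rintro _ ⟨l, hl, rfl⟩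
  obtain ⟨t, rfl⟩ := mem_kline.1 hl
  exact hL t

/-- A member and a different singular line meet in at most a ground field line. -/
theorem meet_le_one (hbare : Bare h M) {g : OQ Q} (hg : g ∈ M) {w y : V} (hw : w ≠ 0)
    (hww : h w w = 0) (hy : y ≠ 0) (hyy : h y y = 0) (hne : img K g w ≠ kline F K y) :
    finrank F (img K g w ⊓ kline F K y : Submodule F V) ≤ 1 := by
  classical
  haveI := hS.finiteV
  haveI := hS.finiteOQ
  by_contra hlt
  push Not at hlt
  obtain ⟨b, q, hf⟩ := hS.exists_frame hy hyy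
  obtain ⟨bw, qw, hfw⟩ := hS.exists_frame hw hww
  let D : Submodule F V := img K g w ⊓ kline F K y
  have hD : 2 ≤ finrank F D := hlt
  let G : Subgroup (OQ Q) :=
    { carrier := {a | a ∈ M ∧ ∀ d ∈ D, a.1 d = d}
      mul_mem' := fun {a c} ha hc => ⟨mul_mem ha.1 hc.1, fun d hd => by
        rw [mul_val, hc.2 d hd, ha.2 d hd]⟩
      one_mem' := ⟨one_mem M, fun d _ => rfl⟩
      inv_mem' := fun {a} ha => ⟨inv_mem ha.1, fun d hd => by
        rw [inv_val, LinearEquiv.symm_apply_eq, ha.2 d hd]⟩ }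
  let P : Subgroup G :=
    { carrier := {a | ∀ t : K, a.1.1 (t • y) = t • y}
      mul_mem' := fun {a c} ha hc t => by
        show a.1.1 (c.1.1 (t • y)) = t • y
        rw [hc t, ha t]
      one_mem' := fun t => rfl
      inv_mem' := fun {a} ha t => by
        show a.1.1.symm (t • y) = t • y
        rw [LinearEquiv.symm_apply_eq, ha t] }
  have hmemP : ∀ a : G, (∀ t : K, a.1.1 (t • y) ∈ kline F K y) → a ∈ P := fun a ha t =>
    hS.fix_line_of_two hbare hy hyy a.2.1 ha D inf_le_right hD a.2.2 t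
  -- exponent
  obtain ⟨p, hpp, hpodd, hchar⟩ := hS.exists_odd_char
  haveI := Fact.mk hpp
  have hPp : ∀ a ∈ P, a ^ p = 1 := by
    intro a ha
    obtain ⟨p', -, hchar', hp'⟩ := hS.exists_pow_of_fix hbare hf a.2.1 ha
    obtain rfl := CharP.eq F hchar' hchar
    exact Subtype.ext (by rw [Subgroup.coe_pow, hp']; rfl)
  have hPgroup : IsPGroup p P := fun a => ⟨1, by
    rw [pow_one]; exact Subtype.ext (hPp a.1 a.2)⟩
  have hPcomm : ∀ a ∈ P, ∀ c ∈ P, a * c = c * a := by
    intro a ha c hc
    obtain ⟨κ, hκ⟩ := hS.unip hbare hf a.2.1 ha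
    obtain ⟨κ', hκ'⟩ := hS.unip hbare hf c.2.1 hc
    refine commutatorElement_eq_one_iff_mul_comm.1 (Subtype.ext (Subtype.ext (LinearEquiv.ext
      fun v => ?_)))
    show (a.1 * c.1 * a.1⁻¹ * c.1⁻¹).1 v = v
    rw [← sub_eq_zero]
    refine hS.bnondeg _ fun v' => ?_
    rw [hS.commutator_form hf.yy (φ := fun x => (κ * x) • b) (φ' := fun x => (κ' * x) • b)
      (fun x => by simp [hf.yb]) (fun x => by simp [hf.yb]) (by simp) (by simp) hκ hκ',
      hS.polar_bline, hS.polar_bline, sub_eq_zero]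
    ring_nf
  -- translations of the line
  let A : Subgroup G :=
    { carrier := {a | ∃ δ : K, ∀ x, a.1.1 x = eich h y (δ • b) x}
      mul_mem' := by
        rintro a c ⟨δ, hδ⟩ ⟨ε, hε⟩
        refine ⟨δ + ε, fun x => ?_⟩
        show a.1.1 (c.1.1 x) = _
        rw [hε, hδ, hS.eich_add hf.yy (by simp [hf.yb]) (by simp [hf.yb]), add_smul]
      one_mem' := ⟨0, fun x => by simp [eich_apply]⟩
      inv_mem' := by
        rintro a ⟨δ, hδ⟩
        refine ⟨-δ, fun x => ?_⟩
        show a.1.1.symm x = _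
        rw [LinearEquiv.symm_apply_eq, hδ, hS.eich_add hf.yy (by simp [hf.yb]) (by simp [hf.yb]),
          neg_smul, add_neg_cancel]
        simp [eich_apply] }
  have hAP : A ≤ P := by
    rintro a ⟨δ, hδ⟩ t
    rw [hδ, hS.eich_smul_y hf.yy (by simp [hf.yb])]
  have hAmem : ∀ δ : K, ∃ a : G, a ∈ A ∧ ∀ x, a.1.1 x = eich h y (δ • b) x := by
    intro δ
    obtain ⟨E, hEM, hE⟩ := hS.exists_eich (b := δ • b) hf.yy (by simp [hf.yb])
    refine ⟨⟨E, hEM, fun d hd => ?_⟩, ⟨δ, hE⟩, hE⟩
    obtain ⟨t, rfl⟩ := mem_kline.1 hd.2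
    rw [hE, hS.eich_smul_y hf.yy (by simp [hf.yb])]
  have hAfix : ∀ a ∈ A, a ≠ 1 → ∀ x, a.1.1 x = x → x ∈ kline F K y := by
    rintro a ⟨δ, hδ⟩ ha x hx
    refine (hS.eich_fixed_iff hf (δ := δ) (fun e => ha (Subtype.ext (Subtype.ext (LinearEquiv.ext
      fun z => ?_)))) ).1 (by rw [← hδ, hx])
    rw [hδ, e]
    simp [eich_apply]
  have hnorm : Subgroup.normalizer (P : Set G) ≤ P := by
    intro x hx
    refine hmemP x fun t => ?_
    obtain ⟨a, haA, ha⟩ := hAmem 1
    have haP : x⁻¹ * a * x ∈ P := by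
      have h1 := (Subgroup.mem_normalizer_iff.1 (inv_mem hx) a).1 (hAP haA)
      rwa [inv_inv] at h1
    have e : x.1.1.symm (a.1.1 (x.1.1 (t • y))) = t • y := haP t
    rw [LinearEquiv.symm_apply_eq, ha] at e
    exact (hS.eich_fixed_iff hf one_ne_zero).1 e
  -- the Sylow subgroup and its complement
  have hindex : ¬ p ∣ P.index := by
    intro hdvd
    obtain ⟨n, hn⟩ := IsPGroup.iff_card.1 hPgroup
    have h1 := Sylow.prime_dvd_card_quotient_normalizer (G := G) (p := p) (n := n) (H := P)
      (by rw [pow_succ, ← hn, ← P.card_mul_index]; exact mul_dvd_mul_left _ hdvd) hn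
    have htop : P.comap (Subgroup.normalizer (P : Set G)).subtype = ⊤ :=
      eq_top_iff.2 fun x _ => hnorm x.2
    have h2 : Nat.card (Subgroup.normalizer (P : Set G) ⧸
        P.comap (Subgroup.normalizer (P : Set G)).subtype) = 1 := by
      show Subgroup.index _ = 1
      rw [htop, Subgroup.index_top]
    rw [h2] at h1
    exact hpp.not_dvd_one h1
  let S : Sylow p G := IsPGroup.toSylow hPgroup hindex
  have hSP : (S : Subgroup G) = P := rfl
  have hSn : Subgroup.normalizer ((S : Subgroup G) : Set G) ≤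
      Subgroup.centralizer ((S : Subgroup G) : Set G) := by
    rw [hSP]
    intro x hx
    rw [Subgroup.mem_centralizer_iff]
    exact fun c hc => hPcomm c hc x (hnorm hx)
  set X := (MonoidHom.transferSylow S hSn).ker with hX
  have hcompl : Subgroup.IsComplement' X P := MonoidHom.ker_transferSylow_isComplement' S hSn
  have hXcop : (Nat.card A).Coprime (Nat.card X) := by
    have h1 : Nat.card X = P.index := hcompl.index_eq_card.symm
    have hco : (Nat.card P).Coprime (Nat.card X) := by
      obtain ⟨n, hn⟩ := IsPGroup.iff_card.1 hPgroup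
      rw [hn, h1]
      exact (hpp.coprime_iff_not_dvd.2 hindex).pow_left n
    exact hco.coprime_dvd_left (Subgroup.card_dvd_of_le hAP)
  haveI : IsMulCommutative A := ⟨⟨fun a c => Subtype.ext (hPcomm _ (hAP a.2) _ (hAP c.2))⟩⟩
  have hA : ¬ IsCyclic A := by
    intro hc
    obtain ⟨a₀, ha₀⟩ := hc.exists_generator
    have hle : Nat.card A ≤ p := by
      rw [← orderOf_eq_card_of_forall_mem_zpowers ha₀]
      refine Nat.le_of_dvd hpp.pos (orderOf_dvd_of_pow_eq_one (Subtype.ext ?_))
      rw [Subgroup.coe_pow, hPp _ (hAP a₀.2)]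
      rfl
    choose f hfA hfv using hAmem
    have hinj : Function.Injective fun δ : K => (⟨f δ, hfA δ⟩ : A) := by
      intro δ ε e
      have e' : ∀ x, eich h y (δ • b) x = eich h y (ε • b) x := fun x => by
        rw [← hfv, ← hfv, show f δ = f ε from Subtype.ext_iff.1 e]
      have := congrArg (h b) (e' q)
      simp only [eich_apply, hf.b_y hS, hf.bq hS, hS.symm q y, hf.yq, one_smul, map_add, map_sub,
        map_smul, smul_eq_mul, mul_zero, sub_zero, zero_add] at this
      exact mul_right_cancel₀ hf.bb this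
    have h1 := Nat.card_le_card_of_injective _ hinj
    have h2 : p ^ finrank F K ≤ Nat.card K := by
      haveI := Fintype.ofFinite F
      rw [Module.natCard_eq_pow_finrank (K := F) (V := K)]
      refine Nat.pow_le_pow_left ?_ _
      rw [Nat.card_eq_fintype_card]
      obtain ⟨n, hn, e⟩ := FiniteField.card F p
      rw [e]
      exact Nat.le_self_pow n.ne_zero p
    have h3 : p < p ^ finrank F K :=
      lt_self_pow₀ hpp.one_lt (by have := hS.five; omega)
    omega
  have hXbot : X = ⊥ := by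
    have hgen := Coprime.iSup_centralizer_eq (K := X) hA
      (by rw [Subgroup.normalizer_eq_top]; exact le_top) hXcop
    rw [← hgen, iSup₂_eq_bot]
    rintro a ⟨haA, ha1⟩
    rw [Subgroup.eq_bot_iff_forall]
    rintro x ⟨hxX, hxC⟩
    have hxP : x ∈ P := hmemP x fun t => by
      refine hAfix a haA ha1 _ ?_
      have e : a * x = x * a := Subgroup.mem_centralizer_iff.1 hxC a rfl
      have e' : a.1.1 (x.1.1 (t • y)) = x.1.1 (a.1.1 (t • y)) :=
        congrArg (fun z : G => z.1.1 (t • y)) e
      rw [e', hAP haA t]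
    exact Subgroup.mem_bot.1 (hcompl.disjoint.le_bot ⟨hxX, hxP⟩)
  rw [hXbot, Subgroup.isComplement'_bot_left] at hcompl
  -- the conjugate translation
  obtain ⟨E, hEM, hE⟩ := hS.exists_eich (b := bw) hfw.yy hfw.yb
  have hfixU : ∀ u ∈ img K g w, (g * E * g⁻¹).1 u = u := by
    rintro _ ⟨z, hz, rfl⟩
    obtain ⟨t, rfl⟩ := mem_kline.1 hz
    show g.1 (E.1 (g.1.symm (g.1 (t • w)))) = g.1 (t • w)
    rw [LinearEquiv.symm_apply_apply, hE, hS.eich_smul_y hfw.yy hfw.yb]
  have hkG : g * E * g⁻¹ ∈ G :=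
    ⟨mul_mem (mul_mem hg hEM) (inv_mem hg), fun d hd => hfixU d hd.1⟩
  have hk : (⟨g * E * g⁻¹, hkG⟩ : G) ∈ P := hcompl ▸ Subgroup.mem_top _
  have hle : kline F K y ≤ img K g w := by
    intro l hl
    obtain ⟨t, rfl⟩ := mem_kline.1 hl
    have e : g.1 (E.1 (g.1.symm (t • y))) = t • y := hk t
    rw [mem_img]
    refine (hS.eich_fixed_iff hfw one_ne_zero).1 ?_
    rw [one_smul, ← hE]
    exact g.1.injective (e.trans (g.1.apply_symm_apply _).symm)
  exact hne (Submodule.eq_of_le_of_finrank_eq hle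
    ((finrank_kline hy).trans (finrank_img hw).symm)).symm

/-- Two different members meet in at most a ground field line. -/
theorem members_meet (hbare : Bare h M) {g g' : OQ Q} (hg : g ∈ M) (hg' : g' ∈ M) {w w' : V}
    (hw : w ≠ 0) (hww : h w w = 0) (hw' : w' ≠ 0) (hww' : h w' w' = 0)
    (hne : img K g w ≠ img K g' w') :
    finrank F (img K g w ⊓ img K g' w' : Submodule F V) ≤ 1 := by
  have hmap : (img K g w).map g'.1.symm.toLinearMap = img K (g'⁻¹ * g) w := by
    rw [img, img, ← Submodule.map_comp]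
    rfl
  have hmap' : (img K g' w').map g'.1.symm.toLinearMap = kline F K w' := by
    rw [img, ← Submodule.map_comp]
    exact (congrArg (fun f => (kline F K w').map f)
      (LinearMap.ext fun x => g'.1.symm_apply_apply x)).trans (Submodule.map_id _)
  rw [← LinearEquiv.finrank_map_eq g'.1.symm, Submodule.map_inf _ g'.1.symm.injective, hmap, hmap']
  refine hS.meet_le_one hbare (mul_mem (inv_mem hg') hg) hw hww hw' hww' fun e => hne ?_
  exact Submodule.map_injective_of_injective g'.1.symm.injective (by rw [hmap, hmap', e])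

end Setup

end Cfsg.Agent.MaxSub.OrthExt3
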