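import Cfsg.Agent.MaxSub.OrthExt3.Spread
import Cfsg.Agent.MaxSub.OrthExt.Final
import Cfsg.Agent.MaxSub.FieldSub

/-!
The normaliser of a self-adjoint extension field of prime degree is maximal in `Ω`, including
dimension three over the extension.
-/

set_option autoImplicit false
set_option linter.style.haveILetI false

namespace Cfsg.Agent.MaxSub.OrthExt3

open Matrix Module Cfsg.Agent.Classical Cfsg.Geo
open scoped MatrixGroups Matrix

theorem omega_extField_maximal_aux' {F : Type*} [Field F] [Fintype F] {ι : Type} [Fintype ι]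
    [DecidableEq ι] [Nonempty ι] {r : ℕ} (h2 : (2 : F) ≠ 0)
    (hd : ∀ d, r * d = Fintype.card ι → 4 ≤ d ∨ (d = 3 ∧ 5 ≤ r)) (hr : r.Prime) {Q : (ι → F) → F}
    (hQ : IsNondegenerateQuadraticForm Q) {K : Type*} [Field K] [Finite K] [Algebra F K]
    (hfr : Module.finrank F K = r) (ψ : K →ₐ[F] Matrix ι ι F)
    (K₀ : Subalgebra F (Matrix ι ι F)) (hψ : ∀ x, x ∈ K₀ ↔ ∃ c, ψ c = x)
    (hsa : IsSelfAdjointFor (QuadraticMap.polar Q) K₀) :
    IsMaximalIn (omegaGL Q) (subalgebraNormalizer K₀ ⊓ omegaGL Q) := by
  classical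
  letI : Module K (ι → F) := Module.compHom (ι → F)
    ((Matrix.toLinAlgEquiv' : Matrix ι ι F ≃ₐ[F] _).toAlgHom.comp ψ).toRingHom
  have hsmul : ∀ (c : K) (v : ι → F), c • v = ψ c *ᵥ v := fun c v => rfl
  haveI : IsScalarTower F K (ι → F) := ⟨fun a c v => by
    rw [hsmul, hsmul, map_smul, Matrix.smul_mulVec]⟩
  haveI : FiniteDimensional F K := Module.finite_of_finrank_pos (hfr ▸ hr.pos)
  haveI : FiniteDimensional K (ι → F) := Module.Finite.of_restrictScalars_finite F K _
  set Qf := GeoClasses.toQF hQ with hQf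
  have hB : BNondeg Qf := GeoClasses.bNondeg_toQF hQ
  have hdim : 4 ≤ finrank K (ι → F) ∨ (finrank K (ι → F) = 3 ∧ 5 ≤ r) := by
    have h := Module.finrank_mul_finrank F K (ι → F)
    rw [hfr, Module.finrank_fintype_fun_eq_card] at h
    exact hd _ h
  have h2K : (2 : K) ≠ 0 := fun h => h2 (by
    apply (algebraMap F K).injective
    rw [map_ofNat, map_zero]; exact h)
  -- the form over `K`
  have htr : (Algebra.traceForm F K).Nondegenerate := traceForm_nondegenerate F K
  have hext : ∀ x y : K, (∀ k, Algebra.trace F K (k * x) = Algebra.trace F K (k * y)) → x = y := by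
    intro x y hxy
    refine sub_eq_zero.1 (htr.1 _ fun k => ?_)
    rw [Algebra.traceForm_apply, mul_comm, mul_sub, map_sub, hxy, sub_self]
  have hsa' : ∀ (k : K) u v, QuadraticMap.polar Qf (k • u) v = QuadraticMap.polar Qf u (k • v) :=
    fun k u v => by
      rw [hsmul, hsmul, hQf, GeoClasses.coe_toQF]
      exact hsa _ ((hψ _).2 ⟨k, rfl⟩) u v
  have hfun : ∀ u v, ∃ c : K, ∀ k : K,
      Algebra.trace F K (k * c) = QuadraticMap.polar Qf (k • u) v := by
    intro u v
    let φ : K →ₗ[F] F :=
      ((QuadraticMap.polarBilin Qf).flip v) ∘ₗ ((LinearMap.toSpanSingleton K _ u).restrictScalars F)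
    refine ⟨((Algebra.traceForm F K).toDual htr).symm φ, fun k => ?_⟩
    have := LinearMap.BilinForm.apply_toDual_symm_apply (hB := htr) φ k
    rw [Algebra.traceForm_apply, mul_comm] at this
    exact this
  choose c hc using hfun
  let h : LinearMap.BilinForm K (ι → F) := LinearMap.mk₂ K c
    (fun u u' v => hext _ _ fun k => by
      rw [hc, mul_add, map_add, hc, hc, smul_add, QuadraticMap.polar_add_left])
    (fun a u v => hext _ _ fun k => by rw [hc, smul_eq_mul, ← mul_assoc, hc, smul_smul])
    (fun u v v' => hext _ _ fun k => by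
      rw [hc, mul_add, map_add (Algebra.trace F K), hc, hc, QuadraticMap.polar_add_right])
    (fun a u v => hext _ _ fun k => by
      rw [hc, smul_eq_mul, ← mul_assoc, hc, hsa', hsa', smul_smul])
  have hh : ∀ u v, h u v = c u v := fun u v => rfl
  have hsymm : ∀ u v, h u v = h v u := fun u v => hext _ _ fun k => by
    rw [hh, hh, hc, hc, hsa', QuadraticMap.polar_comm]
  let QK : QuadraticForm K (ι → F) := (2 : K)⁻¹ • LinearMap.BilinMap.toQuadraticMap h
  have hQK : ∀ v, QK v = (2 : K)⁻¹ * h v v := fun v => by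
    simp [QK, LinearMap.BilinMap.toQuadraticMap_apply]
  have hpolar : ∀ u v, QuadraticMap.polar QK u v = h u v := by
    intro u v
    simp only [QuadraticMap.polar, hQK, map_add, LinearMap.add_apply, hsymm v u]
    field_simp
    ring
  have hval : ∀ v, Qf v = Algebra.trace F K (QK v) := by
    intro v
    refine mul_left_cancel₀ h2 ?_
    rw [← smul_eq_mul (2 : F) (Algebra.trace F K (QK v)), ← map_smul, Algebra.smul_def, map_ofNat,
      hQK, mul_inv_cancel_left₀ h2K, ← one_mul (h v v), hh, hc, one_smul, QuadraticMap.polar_self,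
      two_smul, two_mul]
  set N := (subalgebraNormalizer K₀).comap (GeoClasses.oqToGL Qf) with hN
  -- membership in the normaliser
  have hnorm : ∀ g : OQ Qf, g ∈ N ↔ ∀ k : K, ∃ k' : K, ∀ x, g.1 (k • x) = k' • g.1 x := by
    intro g
    rw [hN, Subgroup.mem_comap, MaxSub.mem_normalizer_iff_map_le]
    constructor
    · intro hg k
      obtain ⟨k', hk'⟩ := (hψ _).1 (hg (ψ k) ((hψ _).2 ⟨k, rfl⟩))
      refine ⟨k', fun x => ?_⟩
      have h' := congrArg
        (fun A => (A * (GeoClasses.oqToGL Qf g : Matrix ι ι F)) *ᵥ x) hk'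
      simp only [mul_assoc, Units.inv_mul, mul_one, ← Matrix.mulVec_mulVec,
        GeoClasses.oqToGL_mulVec] at h'
      rw [hsmul, hsmul]
      exact h'.symm
    · intro hg x hx
      obtain ⟨k, rfl⟩ := (hψ _).1 hx
      obtain ⟨k', hk'⟩ := hg k
      have e : (GeoClasses.oqToGL Qf g : Matrix ι ι F) * ψ k =
          ψ k' * (GeoClasses.oqToGL Qf g : Matrix ι ι F) := by
        refine Matrix.ext_iff_mulVec.2 fun x => ?_
        simp only [← Matrix.mulVec_mulVec, GeoClasses.oqToGL_mulVec, ← hsmul]
        exact hk' x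
      rw [e, mul_assoc, Units.mul_inv, mul_one]
      exact (hψ _).2 ⟨k', rfl⟩
  -- the linear group inside
  let Φ : OQ QK →* OQ Qf :=
    { toFun := fun s => ⟨s.1.restrictScalars F, mem_OQ.2 fun v => by
        rw [hval, hval]
        exact congrArg _ (OQ_map_app s v)⟩
      map_one' := rfl
      map_mul' := fun s t => rfl }
  have hΦ : ∀ s ∈ commutator (OQ QK), Φ s ∈ N ⊓ commutator (OQ Qf) := by
    intro s hs
    refine ⟨(hnorm _).2 fun k => ⟨k, fun x => s.1.map_smul k x⟩, ?_⟩
    have hle : (commutator (OQ QK)).map Φ ≤ commutator (OQ Qf) := by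
      rw [commutator_def, commutator_def, Subgroup.map_commutator]
      exact Subgroup.commutator_mono le_top le_top
    exact hle ⟨s, hs, rfl⟩
  have hlin : ∀ g : OQ Qf, (∀ (c : K) x, g.1 (c • x) = c • g.1 x) →
      g * g ∈ N ⊓ commutator (OQ Qf) := fun g hg =>
    ⟨(hnorm _).2 fun k => ⟨k, fun x => by
      simp only [Subgroup.coe_mul, LinearEquiv.mul_apply, hg]⟩,
      Forms.mul_self_mem_commutator hB (GeoClasses.notExceptional_five (by
        rw [← Module.finrank_mul_finrank F K (ι → F), hfr]
        have := hr.two_le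
        rcases hdim with h4 | ⟨h3, h5⟩
        · nlinarith
        · rw [h3]; omega)) g⟩
  have hmax : IsMaximalIn (commutator (OQ Qf)) (N ⊓ commutator (OQ Qf)) := by
    rcases hdim with hdim | ⟨hdim, hr5⟩
    · have hSetup : ∀ M : Subgroup (OQ Qf), N ⊓ commutator (OQ Qf) ≤ M → OrthExt.Setup QK M :=
        fun M hM => ⟨h2, hval, fun x hx => hB x fun y => by
          rw [← one_smul K x, ← hc, one_mul, ← hh, ← hpolar, hx, map_zero],
          hdim, hfr ▸ hr, fun s hs => ⟨Φ s, hM (hΦ s hs), fun x => rfl⟩⟩
      refine ⟨lt_of_le_not_ge inf_le_right fun hle => ?_, fun M hM hMC => ?_⟩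
      · obtain ⟨g, hg, hout⟩ := (hSetup _ le_rfl).exists_outside
        exact hout ((hnorm g).1 (hle hg).1)
      · by_cases hMN : M ≤ N
        · exact Or.inl (le_antisymm (le_inf hMN hMC) hM)
        obtain ⟨g, hgM, hgN⟩ := SetLike.not_le_iff_exists.1 hMN
        exact Or.inr (le_antisymm hMC
          ((hSetup M hM).commutator_le hgM fun h' => hgN ((hnorm g).2 h')))
    have htrh : ∀ u v, QuadraticMap.polar Qf u v = Algebra.trace F K (h u v) := fun u v => by
      have := hc u v 1
      rw [one_mul, one_smul, ← hh] at this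
      exact this.symm
    have hnd : ∀ v, (∀ u, h u v = 0) → v = 0 := fun v hv => hB v fun u => by
      rw [QuadraticMap.polar_comm, htrh, hv u, map_zero]
    have hS : ∀ M : Subgroup (OQ Qf), N ⊓ commutator (OQ Qf) ≤ M → M ≤ commutator (OQ Qf) →
        OrthExt3.Setup Qf h M := fun M hM hMC =>
      ⟨h2, hsymm, htrh, hnd, fun g hg => hM (hlin g hg), hMC, hdim, hfr ▸ hr, hfr ▸ hr5⟩
    have hn5 : 5 ≤ finrank F (ι → F) := by
      rw [← Module.finrank_mul_finrank F K (ι → F), hfr, hdim]
      omega
    have hSN := hS _ le_rfl inf_le_right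
    refine ⟨lt_of_le_not_ge inf_le_right fun hle => ?_, fun M hM hMC => ?_⟩
    · obtain ⟨y, -, hy0, hy⟩ := Forms.exists_singular_vector_of_three_le (OrthExt3.qK h)
        (S := (⊤ : Submodule K (ι → F))) (by rw [finrank_top]; omega)
      rw [OrthExt3.qK_apply] at hy
      obtain ⟨q, hqq, hyq⟩ := hSN.exists_partner hy0 hy
      obtain ⟨b₀, hyb₀, hqb₀, hbb₀⟩ := hSN.exists_anisotropic_perp_two hy hqq hyq
      have hb₀0 : b₀ ≠ 0 := fun e => hbb₀ (by simp [e])
      have hW : 3 ≤ finrank F (MaxSub.ExtField.kline F K b₀) := by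
        rw [MaxSub.ExtField.finrank_kline hb₀0, hfr]
        omega
      obtain ⟨b, hbW, hb0, hQb⟩ := Forms.exists_singular_vector_of_three_le Qf hW
      obtain ⟨β, hβ⟩ := MaxSub.ExtField.mem_kline.1 hbW
      have hyb : h y b = 0 := by rw [← hβ, map_smul, hyb₀, smul_zero]
      have hqb : h q b = 0 := by rw [← hβ, map_smul, hqb₀, smul_zero]
      have hQy : Qf y = 0 := hSN.sing_Q hy
      have hfyb : QuadraticMap.polar Qf y b = 0 := by rw [htrh, hyb, map_zero]
      have hg := (hnorm _).1
        (hle (GeoClasses.siegel_singular_mem_commutator hB hn5 hQy hfyb hQb)).1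
      have hval : ∀ (k : K) x, (siegel Qf hQy hfyb).1 (k • x) = k • x +
          Algebra.trace F K (k * h y x) • b - Algebra.trace F K (k * h b x) • y := by
        intro k x
        rw [siegel_apply, hSN.polar_smul', hSN.polar_smul', hQb]
        simp
      have hline : ∀ k : K, (siegel Qf hQy hfyb).1 (k • y) = k • y := fun k => by
        rw [hval, hy, hsymm b y, hyb]
        simp
      have hK : ∀ k : K, Algebra.trace F K k • b = k • (Algebra.trace F K (1 : K) • b) := by
        intro k
        obtain ⟨k', hk'⟩ := hg k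
        have hkk : k = k' := by
          have h1 := hk' y
          rw [hline] at h1
          have h1' := hline 1
          rw [one_smul] at h1'
          rw [h1'] at h1
          exact smul_left_injective K hy0 h1
        have h1 := hk' q
        have h1' := hval 1 q
        rw [one_smul, one_mul, one_mul, hyq, hsymm b q, hqb, map_zero, zero_smul, sub_zero] at h1'
        rw [h1', ← hkk, hval, hyq, hsymm b q, hqb, mul_one, mul_zero, map_zero, zero_smul,
          sub_zero, smul_add] at h1
        exact add_left_cancel h1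
      have hK' : ∀ k : K, algebraMap F K (Algebra.trace F K k) =
          k * algebraMap F K (Algebra.trace F K 1) := fun k => by
        refine smul_left_injective K hb0 ?_
        simpa [algebraMap_smul, mul_smul] using hK k
      have ht1 : algebraMap F K (Algebra.trace F K 1) ≠ 0 := by
        intro e
        obtain ⟨k, hk⟩ := (Algebra.trace_surjective F K) 1
        have := hK' k
        rw [hk, e, mul_zero, map_one] at this
        exact one_ne_zero this
      have hsurj : Function.Surjective (Algebra.linearMap F K) := fun k =>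
        ⟨Algebra.trace F K k / Algebra.trace F K 1, by
          rw [Algebra.linearMap_apply, map_div₀, hK', mul_div_assoc, div_self ht1, mul_one]⟩
      have h5 := LinearMap.finrank_range_le (Algebra.linearMap F K)
      rw [LinearMap.range_eq_top.2 hsurj, finrank_top, hfr, Module.finrank_self] at h5
      have := hr.two_le
      omega
    · by_cases hMN : M ≤ N
      · exact Or.inl (le_antisymm (le_inf hMN hMC) hM)
      obtain ⟨g, hgM, hgN⟩ := SetLike.not_le_iff_exists.1 hMN
      exact Or.inr (le_antisymm hMC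
        ((hS M hM hMC).commutator_le hgM fun hs => hgN ((hnorm g).2 hs)))
  have := GeoClasses.isMaximalIn_map (GeoClasses.oqToGL_injective Qf) hmax
  rw [Subgroup.map_inf _ _ _ (GeoClasses.oqToGL_injective Qf), GeoClasses.map_oqToGL_commutator,
    hN, Subgroup.map_comap_eq] at this
  have hle : omegaGL Q ≤ (GeoClasses.oqToGL Qf).range := by
    have := GeoClasses.map_oqToGL_commutator Qf
    rw [hQf, GeoClasses.coe_toQF] at this
    exact this.symm.le.trans (Subgroup.map_le_range _ _)
  simp only [hQf, GeoClasses.coe_toQF] at this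
  rwa [inf_comm (GeoClasses.oqToGL _).range, inf_assoc,
    inf_of_le_right (a := (GeoClasses.oqToGL _).range) (b := omegaGL Q) hle] at this

/-- The maximality theorem for dimension at least three over the field. -/
theorem omega_extField_maximal_three {F : Type*} [Field F] [Fintype F] {ι : Type} [Fintype ι]
    [DecidableEq ι] [Nonempty ι] {r : ℕ} (hodd : Odd (Fintype.card F))
    (hd : ∀ d, r * d = Fintype.card ι → 4 ≤ d ∨ (d = 3 ∧ 5 ≤ r)) (hr : r.Prime) {Q : (ι → F) → F}
    (hQ : IsNondegenerateQuadraticForm Q) (K : Subalgebra F (Matrix ι ι F))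
    (hK : IsFieldSubalgebra r K) (hsa : IsSelfAdjointFor (QuadraticMap.polar Q) K) :
    IsMaximalIn (omegaGL Q) (subalgebraNormalizer K ⊓ omegaGL Q) := by
  letI : Field K := (isField_of_isFieldSubalgebra hK).toField
  haveI : Finite K := Finite.of_injective
    (fun x : K => (x : Matrix ι ι F)) Subtype.val_injective
  exact omega_extField_maximal_aux' (Ring.two_ne_zero fun h => by
      have := FiniteField.even_card_of_char_two h
      rw [Nat.odd_iff] at hodd
      omega) hd hr hQ (K := K) hK.finrank_eq K.val K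
    (fun x => ⟨fun hx => ⟨⟨x, hx⟩, rfl⟩, fun ⟨c, hc⟩ => hc ▸ c.2⟩) hsa

end Cfsg.Agent.MaxSub.OrthExt3
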