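import Cfsg.Agent.MaxSub.OrthExt3.StageOne

/-!
A largest intersection of an image of a singular line with another one gives an element acting on
a singular line as a transvection.
-/

set_option autoImplicit false
set_option linter.style.haveILetI false
set_option linter.unusedSectionVars false

namespace Cfsg.Agent.MaxSub.OrthExt3

open QuadraticMap Module Cfsg.Agent.Classical Cfsg.Agent.MaxSub.ExtField

universe u v w

variable {F : Type u} {K : Type w} {V : Type v} [Field F] [Field K] [Algebra F K] [AddCommGroup V]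
  [Module F V] [Module K V] [IsScalarTower F K V] [FiniteDimensional F K] [FiniteDimensional F V]
  [FiniteDimensional K V] [Finite F] [Finite K]
  {Q : QuadraticForm F V} {h : LinearMap.BilinForm K V} {M : Subgroup (OQ Q)}

/-- A singular image and a different singular line. -/
structure Meet (h : LinearMap.BilinForm K V) (M : Subgroup (OQ Q)) (g : OQ Q) (w y : V) : Prop where
  mem : g ∈ M
  w_ne : w ≠ 0
  w_sing : h w w = 0
  y_ne : y ≠ 0
  y_sing : h y y = 0
  ne : img K g w ≠ kline F K y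

/-- The dimension of the intersection. -/
noncomputable abbrev meetDim (K : Type w) [Field K] [Algebra F K] [Module K V] [IsScalarTower F K V]
    (g : OQ Q) (w y : V) : ℕ := finrank F (img K g w ⊓ kline F K y : Submodule F V)

/-- A largest intersection. -/
structure MaxMeet (h : LinearMap.BilinForm K V) (M : Subgroup (OQ Q)) (g : OQ Q) (w y : V) : Prop
    extends Meet h M g w y where
  pos : 1 ≤ meetDim K g w y
  max : ∀ {g' w' y'}, Meet h M g' w' y' → meetDim K g' w' y' ≤ meetDim K g w y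

lemma Meet.dim_lt {g : OQ Q} {w y : V} (hm : Meet h M g w y) :
    meetDim K g w y < finrank F K := by
  refine lt_of_le_of_ne ((Submodule.finrank_mono inf_le_right).trans_eq (finrank_kline hm.y_ne))
    fun e => hm.ne ?_
  have h1 : img K g w ⊓ kline F K y = kline F K y :=
    Submodule.eq_of_le_of_finrank_eq inf_le_right (e.trans (finrank_kline hm.y_ne).symm)
  exact (Submodule.eq_of_le_of_finrank_eq (inf_eq_right.1 h1)
    ((finrank_kline hm.y_ne).trans (finrank_img hm.w_ne).symm)).symm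

/-- Elements fixing the image and a vector of the line modulo the intersection stabilise the
line. -/
lemma MaxMeet.stab {g : OQ Q} {w y : V} (hm : MaxMeet h M g w y) {a : OQ Q} (ha : a ∈ M)
    (hfix : ∀ u ∈ img K g w, a.1 u = u) {x : V} (hx : x ∈ kline F K y) (hxU : x ∉ img K g w)
    (hax : a.1 x - x ∈ img K g w ⊓ kline F K y) {l : V} (hl : l ∈ kline F K y) :
    a.1 l ∈ kline F K y := by
  by_contra hne
  have hmeet : Meet h M a y y := ⟨ha, hm.y_ne, hm.y_sing, hm.y_ne, hm.y_sing, fun e =>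
    hne (e ▸ apply_mem_img hl)⟩
  have h1 := hm.max hmeet
  have hle : img K g w ⊓ kline F K y ≤ img K a y ⊓ kline F K y := fun v hv =>
    ⟨hfix v hv.1 ▸ apply_mem_img hv.2, hv.2⟩
  have hax' : a.1 x ∈ img K a y ⊓ kline F K y := ⟨apply_mem_img hx, by
    simpa using (kline F K y).add_mem hx hax.2⟩
  have heq := Submodule.eq_of_le_of_finrank_le hle h1
  have h2 : a.1 x ∈ img K g w := (heq ▸ hax').1
  exact hxU (a.1.injective (hfix _ h2) ▸ h2)

/-- The restriction to a line as a map of the field. -/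
lemma exists_line_map {a : OQ Q} {y : V} (hy : y ≠ 0)
    (hL : ∀ l ∈ kline F K y, a.1 l ∈ kline F K y) :
    ∃ N : K →ₗ[F] K, ∀ t : K, a.1 (t • y) = (t + N t) • y := by
  have hex : ∀ t : K, ∃ c : K, c • y = a.1 (t • y) :=
    fun t => mem_kline.1 (hL _ (mem_kline.2 ⟨t, rfl⟩))
  choose c hc using hex
  refine ⟨{ toFun := fun t => c t - t, map_add' := fun s t => ?_, map_smul' := fun r t => ?_ },
    fun t => by simp [hc]⟩
  · refine smul_left_injective K hy ?_
    simp only [sub_smul, add_smul, hc, map_add]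
    abel
  · refine smul_left_injective K hy ?_
    simp only [RingHom.id_apply, sub_smul, smul_assoc, hc, map_smul, smul_sub]

namespace Setup

variable (hS : Setup Q h M)
include hS

lemma exists_maxMeet {y : V} (hy0 : y ≠ 0) (hy : h y y = 0) (hne : space h M y ≠ ⊥) :
    ∃ g w y', MaxMeet h M g w y' := by
  classical
  obtain ⟨B, hB, hB0⟩ := (Submodule.ne_bot_iff _).1 hne
  obtain ⟨b, q, hf⟩ := hS.exists_frame hy0 hy
  have hodd : Odd (finrank F K) := hS.prime.odd_of_ne_two (by have := hS.five; omega)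
  obtain ⟨k₀, hk₀, hBk⟩ := exists_kernel hS.two hodd (hS.skew_of_mem hy0 hy hB)
  obtain ⟨g₁, hg₁, hg₁v⟩ := (mem_space hy).1 hB 1
  have hgq : ∀ c : K, g₁.1 (c • q) = c • q + B c • y := fun c => by
    rw [hg₁v, map_smul, hf.yq, smul_eq_mul, mul_one, one_smul]
  obtain ⟨c, hc⟩ : ∃ c, B c ≠ 0 := by
    by_contra hc
    push Not at hc
    exact hB0 (LinearMap.ext hc)
  have hm₁ : Meet h M g₁ q q := by
    refine ⟨hg₁, hf.q_ne, hf.qq, hf.q_ne, hf.qq, fun e => hc ?_⟩
    have h1 : c • q + B c • y ∈ kline F K q := hgq c ▸ e ▸ apply_mem_img (mem_kline.2 ⟨c, rfl⟩)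
    have h2 := pair_kline hf.qq h1
    simpa [hf.qq, hf.qy hS] using h2
  have hp : 1 ≤ meetDim K g₁ q q := by
    rw [Nat.one_le_iff_ne_zero, meetDim, Ne, Submodule.finrank_eq_zero, ← Ne,
      Submodule.ne_bot_iff]
    refine ⟨k₀ • q, ⟨?_, mem_kline.2 ⟨k₀, rfl⟩⟩, smul_ne_zero hk₀ hf.q_ne⟩
    have := apply_mem_img (g := g₁) (w := q) (mem_kline.2 ⟨k₀, rfl⟩ : k₀ • q ∈ kline F K q)
    rwa [hgq, hBk, zero_smul, add_zero] at this
  let P : ℕ → Prop := fun e => ∃ g w y, Meet h M g w y ∧ meetDim K g w y = e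
  have hle : ∀ {g w y}, Meet h M g w y → meetDim K g w y ≤ finrank F K := fun hm => hm.dim_lt.le
  obtain ⟨g₀, w₀, y₀, hm₀, he⟩ : P (Nat.findGreatest P (finrank F K)) :=
    Nat.findGreatest_spec (hle hm₁) ⟨_, _, _, hm₁, rfl⟩
  exact ⟨g₀, w₀, y₀, { hm₀ with
    pos := by
      rw [he]; exact hp.trans (Nat.le_findGreatest (hle hm₁) ⟨_, _, _, hm₁, rfl⟩)
    max := fun hm => by
      rw [he]; exact Nat.le_findGreatest (hle hm) ⟨_, _, _, hm, rfl⟩ }⟩

/-- An element acting on a singular line as a transvection. -/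
theorem exists_transvection {g₁ : OQ Q} (hg₁ : g₁ ∈ M)
    (hnot : ¬ ∀ c : K, ∃ c' : K, ∀ x, g₁.1 (c • x) = c' • g₁.1 x) :
    ∃ y, y ≠ 0 ∧ h y y = 0 ∧ ∃ a ∈ M, ∃ N : K →ₗ[F] K, N ≠ 0 ∧ (∀ u, N (N u) = 0) ∧
      ∀ t : K, a.1 (t • y) = (t + N t) • y := by
  classical
  obtain ⟨y₁, -, hy₁0, hy₁⟩ := Forms.exists_singular_vector_of_three_le (qK h)
    (S := (⊤ : Submodule K V)) (by rw [finrank_top, hS.dim])
  rw [qK_apply] at hy₁
  have hall : ∀ {y : V}, y ≠ 0 → h y y = 0 → space h M y ≠ ⊥ := fun h0 hs =>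
    hS.space_ne_bot hg₁ hnot h0 hs
  obtain ⟨g, w, y, hm⟩ := hS.exists_maxMeet hy₁0 hy₁ (hall hy₁0 hy₁)
  have hnil : ∀ {a : OQ Q} {z : V} {N : K →ₗ[F] K}, z ≠ 0 →
      (∀ t : K, a.1 (t • z) = (t + N t) • z) →
      (∀ l ∈ kline F K z, a.1 (a.1 l - l) = a.1 l - l) → ∀ u, N (N u) = 0 := by
    intro a z N hz hN hsq u
    have e := hsq (u • z) (mem_kline.2 ⟨u, rfl⟩)
    rw [hN, ← sub_smul, add_sub_cancel_left, hN] at e
    simpa using smul_left_injective K hz e
  by_cases hperp : ∀ u ∈ img K g w, h u y = 0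
  · -- the image is orthogonal to the line
    obtain ⟨x, hxL, hxU⟩ : ∃ x ∈ kline F K y, x ∉ img K g w := by
      by_contra hc
      push Not at hc
      exact hm.ne (Submodule.eq_of_le_of_finrank_eq hc
        ((finrank_kline hm.y_ne).trans (finrank_img hm.w_ne).symm)).symm
    obtain ⟨z, hz⟩ : ∃ z, z = g.1.symm x := ⟨_, rfl⟩
    have hlw : ∀ l ∈ kline F K y, h (g.1.symm l) w = 0 := fun l hl => hS.h_eq_zero fun c => by
      rw [hS.polar_smul, ← hS.polar_smul', ← OQ_polar g, LinearEquiv.apply_symm_apply, hS.tr,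
        hS.symm]
      obtain ⟨t, rfl⟩ := mem_kline.1 hl
      rw [map_smul, hperp _ (apply_mem_img (mem_kline.2 ⟨c, rfl⟩)), smul_zero, map_zero]
    obtain ⟨b, q, hf⟩ := hS.exists_frame hm.w_ne hm.w_sing
    have hzb : h z b ≠ 0 := fun e => hxU (mem_img.2 (hz ▸ (hf.mem_kline_iff hS).2
      ⟨by rw [hS.symm, hz, hlw x hxL], by rw [hS.symm, e]⟩))
    obtain ⟨u, ⟨hu1, hu2⟩, hu0⟩ : ∃ u ∈ img K g w ⊓ kline F K y, u ≠ 0 :=
      (Submodule.ne_bot_iff _).1 fun e => by
        have := hm.pos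
        rw [meetDim, e, finrank_bot] at this
        omega
    obtain ⟨j, hj⟩ := mem_kline.1 (mem_img.1 hu1)
    obtain ⟨E, hEM, hE⟩ := hS.exists_eich (b := (-(j / h z b)) • b) hf.yy (by simp [hf.yb])
    obtain ⟨a, ha⟩ : ∃ a, a = g * E * g⁻¹ := ⟨_, rfl⟩
    have haM : a ∈ M := ha ▸ mul_mem (mul_mem hm.mem hEM) (inv_mem hm.mem)
    have hav : ∀ v, a.1 v = g.1 (E.1 (g.1.symm v)) := fun v => by rw [ha]; rfl
    have hfix : ∀ v ∈ img K g w, a.1 v = v := by
      intro v hv
      obtain ⟨t, ht⟩ := mem_kline.1 (mem_img.1 hv)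
      rw [hav, ← ht, hE, hS.eich_smul_y hf.yy (by simp [hf.yb]), ht, LinearEquiv.apply_symm_apply]
    have hal : ∀ l ∈ kline F K y, a.1 l - l ∈ img K g w := by
      intro l hl
      refine mem_img.2 ?_
      rw [map_sub, hav, LinearEquiv.symm_apply_apply, hE, eich_apply, hlw l hl, zero_smul,
        add_zero, sub_sub_cancel_left]
      exact neg_mem (mem_kline.2 ⟨_, rfl⟩)
    have hax : a.1 x - x = u := by
      refine g.1.symm.injective ?_
      rw [map_sub, hav, LinearEquiv.symm_apply_apply, hE, eich_apply, hlw x hxL, zero_smul,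
        add_zero, sub_sub_cancel_left, ← hj, ← hz, mul_zero, add_zero, map_smul, smul_eq_mul,
        neg_mul, div_mul_cancel₀ _ hzb, neg_smul, neg_neg]
    have hstab : ∀ l ∈ kline F K y, a.1 l ∈ kline F K y := fun l hl =>
      hm.stab haM hfix hxL hxU (hax.symm ▸ ⟨hu1, hu2⟩) hl
    obtain ⟨N, hN⟩ := exists_line_map hm.y_ne hstab
    refine ⟨y, hm.y_ne, hm.y_sing, a, haM, N, fun e => hu0 ?_,
      hnil hm.y_ne hN fun l hl => hfix _ (hal l hl), hN⟩
    obtain ⟨tx, rfl⟩ := mem_kline.1 hxL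
    rw [← hax, hN, e]
    simp
  · push Not at hperp
    obtain ⟨u, huU, huy⟩ := hperp
    obtain ⟨d, ⟨hd1, hd2⟩, hd0⟩ : ∃ d ∈ img K g w ⊓ kline F K y, d ≠ 0 :=
      (Submodule.ne_bot_iff _).1 fun e => by
        have := hm.pos
        rw [meetDim, e, finrank_bot] at this
        omega
    obtain ⟨j, rfl⟩ := mem_kline.1 hd2
    have hjc : Algebra.trace F K (h y u * j) = 0 := by
      rw [mul_comm, hS.symm, ← hS.polar_smul', polar_comm]
      exact hS.polar_img hm.w_sing hd1 huU
    obtain ⟨A, hA, hA0⟩ := (Submodule.ne_bot_iff _).1 (hall hm.y_ne hm.y_sing)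
    obtain ⟨B, hB, hBc⟩ := exists_apply_eq rfl hS.prime hS.two
      (fun B hB l => hS.scaled_mem hm.y_ne hm.y_sing hB l) hA
      (hS.skew_of_mem hm.y_ne hm.y_sing hA) hA0 (c := h y u) (by rwa [hS.symm]) hjc
    obtain ⟨e, heM, he⟩ := (mem_space hm.y_sing).1 hB 1
    simp only [one_smul] at he
    have heu : e.1 u = u + j • y := by rw [he, hBc]
    have heL : ∀ v, h y v = 0 → e.1 v = v := fun v hv => by
      rw [he, hv, map_zero, zero_smul, add_zero]
    have huL : u ∉ kline F K y := fun hu => huy (by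
      rw [hS.symm]; exact pair_kline hm.y_sing hu)
    obtain ⟨a, ha⟩ : ∃ a, a = g⁻¹ * e * g := ⟨_, rfl⟩
    have haM : a ∈ M := ha ▸ mul_mem (mul_mem (inv_mem hm.mem) heM) hm.mem
    have hav : ∀ v, a.1 v = g.1.symm (e.1 (g.1 v)) := fun v => by rw [ha]; rfl
    have heq : img K a w = kline F K w := by
      by_contra hne
      have h1 := hm.max (g' := a) ⟨haM, hm.w_ne, hm.w_sing, hm.w_ne, hm.w_sing, hne⟩
      let D := img K g w ⊓ kline F K y
      let D' : Submodule F V := (D ⊔ Submodule.span F {u}).map e.1.toLinearMap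
      have hlt : D < D ⊔ Submodule.span F {u} :=
        left_lt_sup.2 fun hle => huL (hle (Submodule.mem_span_singleton_self u)).2
      have h2 := Submodule.finrank_lt_finrank_of_lt hlt
      have h3 : D'.map g.1.symm.toLinearMap ≤ img K a w ⊓ kline F K w := by
        rintro _ ⟨_, ⟨v, hv, rfl⟩, rfl⟩
        show g.1.symm (e.1 v) ∈ _
        have hvU : v ∈ img K g w :=
          (sup_le inf_le_left (Submodule.span_le.2 (Set.singleton_subset_iff.2 huU)) :
            D ⊔ Submodule.span F {u} ≤ img K g w) hv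
        have hevU : e.1 v ∈ img K g w := by
          have hle : D ⊔ Submodule.span F {u} ≤ (img K g w).comap e.1.toLinearMap := by
            refine sup_le (fun x hx => ?_) (Submodule.span_le.2 (Set.singleton_subset_iff.2 ?_))
            · show e.1 x ∈ img K g w
              rw [heL x (pair_kline hm.y_sing hx.2)]
              exact hx.1
            · refine Submodule.mem_comap.2 ?_
              show e.1 u ∈ img K g w
              rw [heu]
              exact add_mem huU hd1
          exact hle hv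
        refine ⟨?_, mem_img.1 hevU⟩
        obtain ⟨z, hz, rfl⟩ := hvU
        rw [show g.1.symm (e.1 (g.1.toLinearMap z)) = a.1 z from (hav z).symm]
        exact apply_mem_img hz
      have h4 := Submodule.finrank_mono h3
      rw [LinearEquiv.finrank_map_eq, LinearEquiv.finrank_map_eq] at h4
      change meetDim K a w w ≤ finrank F D at h1
      change finrank F ↥(D ⊔ Submodule.span F {u}) ≤ meetDim K a w w at h4
      omega
    have hstab : ∀ l ∈ kline F K w, a.1 l ∈ kline F K w := fun l hl => heq ▸ apply_mem_img hl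
    obtain ⟨N, hN⟩ := exists_line_map hm.w_ne hstab
    refine ⟨w, hm.w_ne, hm.w_sing, a, haM, N, fun e0 => hd0 ?_, hnil hm.w_ne hN ?_, hN⟩
    · obtain ⟨t, ht⟩ := mem_kline.1 (mem_img.1 huU)
      have e1 : a.1 (t • w) = t • w := by rw [hN, e0]; simp
      rw [hav, ht, LinearEquiv.apply_symm_apply, g.1.symm.injective.eq_iff, heu] at e1
      exact add_eq_left.1 e1
    · intro l _
      rw [hav (a.1 l - l)]
      refine g.1.injective ?_
      rw [LinearEquiv.apply_symm_apply, map_sub, hav, LinearEquiv.apply_symm_apply, he (g.1 l),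
        add_sub_cancel_left, heL _ (by rw [map_smul, hm.y_sing, smul_zero])]

end Setup

end Cfsg.Agent.MaxSub.OrthExt3
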