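import Cfsg.Agent.MaxSub.OrthExt3.Big

/-!
When no skew map gives elements of the overgroup, the size of an orbit of members through an
anisotropic vector.
-/

set_option autoImplicit false
set_option linter.style.haveILetI false
set_option linter.unusedSectionVars false

namespace Cfsg.Agent.MaxSub.OrthExt3

open QuadraticMap Module Cfsg.Agent.Classical Cfsg.Agent.MaxSub.ExtField

universe u v w

lemma card_dvd_of_free {A X : Type*} [Group A] [Finite A] [Finite X] [MulAction A X]
    (h : ∀ (x : X) (a : A), a • x = x → a = 1) : Nat.card A ∣ Nat.card X := by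
  classical
  haveI := Fintype.ofFinite (MulAction.orbitRel.Quotient A X)
  rw [Nat.card_congr (MulAction.selfEquivSigmaOrbitsQuotientStabilizer A X), Nat.card_sigma]
  refine Finset.dvd_sum fun ω _ => ?_
  have e : MulAction.stabilizer A ω.out = ⊥ := (Subgroup.eq_bot_iff_forall _).2 fun a ha => h _ a ha
  rw [← (MulAction.stabilizer A ω.out).index_eq_card, e, Subgroup.index_bot]

variable {F : Type u} {K : Type w} {V : Type v} [Field F] [Field K] [Algebra F K] [AddCommGroup V]
  [Module F V] [Module K V] [IsScalarTower F K V] [FiniteDimensional F K] [FiniteDimensional F V]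
  [FiniteDimensional K V] [Finite F] [Finite K]
  {Q : QuadraticForm F V} {h : LinearMap.BilinForm K V} {M : Subgroup (OQ Q)}

/-- The orbit of a member. -/
def orb (K : Type w) [Field K] [Algebra F K] [Module K V] [IsScalarTower F K V]
    (H : Subgroup (OQ Q)) (g : OQ Q) (w : V) : Set (Submodule F V) :=
  {S | ∃ a ∈ H, img K (a * g) w = S}

lemma map_img (a g : OQ Q) (w : V) :
    (img K g w).map a.1.toLinearMap = img K (a * g) w := by
  rw [img, img, ← Submodule.map_comp]
  rfl

lemma self_mem_orb {H : Subgroup (OQ Q)} {g : OQ Q} {w : V} : img K g w ∈ orb K H g w :=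
  ⟨1, one_mem H, by rw [one_mul]⟩

lemma map_mem_orb {H : Subgroup (OQ Q)} {g : OQ Q} {w : V} {S : Submodule F V}
    (hS : S ∈ orb K H g w) {a : OQ Q} (ha : a ∈ H) : S.map a.1.toLinearMap ∈ orb K H g w := by
  obtain ⟨b, hb, rfl⟩ := hS
  exact ⟨a * b, mul_mem ha hb, by rw [map_img, mul_assoc]⟩

namespace Setup

variable (hS : Setup Q h M)
include hS

/-- An element fixing a vector of a member it stabilises, with a large fixed space, fixes the
member pointwise. -/
lemma fix_member (hbare : Bare h M) {g : OQ Q} (hg : g ∈ M) {w : V} (hw : w ≠ 0)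
    (hww : h w w = 0) {x : OQ Q} (hx : x ∈ M)
    (hxS : (img K g w).map x.1.toLinearMap = img K g w) {v : V} (hv0 : v ≠ 0)
    (hvS : v ∈ img K g w) (hxv : x.1 v = v) (hbig : 3 < finrank F (fixSpace x)) :
    img K g w ≤ fixSpace x := by
  obtain ⟨e, he⟩ : ∃ e, e = g⁻¹ * x * g := ⟨_, rfl⟩
  have hev : ∀ z, e.1 z = g.1.symm (x.1 (g.1 z)) := fun z => by rw [he]; rfl
  have heL : ∀ t : K, e.1 (t • w) ∈ kline F K w := fun t => by
    rw [hev]
    exact mem_img.1 (hxS ▸ Submodule.mem_map_of_mem (apply_mem_img (mem_kline.2 ⟨t, rfl⟩)))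
  obtain ⟨t₀, ht₀⟩ := mem_kline.1 (mem_img.1 hvS)
  have ht₀0 : t₀ ≠ 0 := fun e0 => hv0 (by
    rw [e0, zero_smul, eq_comm] at ht₀
    simpa using congrArg g.1 ht₀)
  have hfixe : fixSpace e = (fixSpace x).map g.1.symm.toLinearMap := by
    ext z
    rw [mem_fixSpace, hev, Submodule.mem_map]
    constructor
    · intro hz
      exact ⟨g.1 z, mem_fixSpace.2 (g.1.symm.injective (by rw [hz, g.1.symm_apply_apply])),
        g.1.symm_apply_apply z⟩
    · rintro ⟨z', hz', rfl⟩
      show g.1.symm (x.1 (g.1 (g.1.symm z'))) = g.1.symm z'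
      rw [LinearEquiv.apply_symm_apply, mem_fixSpace.1 hz']
  have hpt := hS.fix_line_of_big hbare hw hww (he ▸ mul_mem (mul_mem (inv_mem hg) hx) hg) heL ht₀0
    (by rw [hev, ht₀, LinearEquiv.apply_symm_apply, hxv])
    (by rw [hfixe, LinearEquiv.finrank_map_eq]; exact hbig)
  rintro _ ⟨z, hz, rfl⟩
  obtain ⟨t, rfl⟩ := mem_kline.1 hz
  refine mem_fixSpace.2 ?_
  have := hpt t
  rw [hev, LinearEquiv.symm_apply_eq] at this
  exact this

/-- The size of an orbit of members through an anisotropic vector. -/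
theorem orbit_size (hbare : Bare h M) {v : V} (hv : h v v ≠ 0) {g : OQ Q} (hg : g ∈ M) {w : V}
    (hw : w ≠ 0) (hww : h w w = 0) (hvU : v ∈ img K g w) (H : Subgroup (OQ Q)) (hHM : H ≤ M)
    (hHv : ∀ a ∈ H, a.1 v = v ∨ a.1 v = -v)
    (hA : ∀ a ∈ M, ∀ p : ℕ, Odd p → a ^ p = 1 → a.1 v = v → a ∈ H)
    (C : Subgroup (OQ Q)) (hCH : C ≤ H)
    (hCfix : ∀ c ∈ C, c ≠ 1 → ∀ x, c.1 x = x ↔ x ∈ kline F K v) :
    ∃ j, Nat.card (orb K H g w) = 1 + j * Nat.card K ∧
      Nat.card C ∣ Nat.card (orb K H g w) ∧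
      Nat.card (orb K H g w) * (Nat.card K - Nat.card F) <
        Nat.card F ^ (3 * finrank F K - 1) := by
  classical
  haveI := hS.finiteV
  haveI := hS.finiteOQ
  haveI : Finite (Submodule F V) := Finite.of_injective _ SetLike.coe_injective
  set O := orb K H g w with hOdef
  have hv0 : v ≠ 0 := fun e => hv (by simp [e])
  have hmem : ∀ S ∈ O, ∃ g' ∈ M, img K g' w = S ∧ v ∈ S := by
    rintro _ ⟨a, ha, rfl⟩
    refine ⟨_, mul_mem (hHM ha) hg, rfl, ?_⟩
    rw [← map_img]
    rcases hHv a ha with e | e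
    · exact ⟨v, hvU, e⟩
    · exact ⟨-v, Submodule.neg_mem _ hvU, by simp [e]⟩
  have hKne : ∀ S ∈ O, ¬ S ≤ kline F K v := by
    intro S hSO hle
    obtain ⟨g', -, rfl, -⟩ := hmem S hSO
    apply hv
    refine hS.h_eq_zero fun c => ?_
    have heq := Submodule.eq_of_le_of_finrank_eq hle
      ((finrank_img hw).trans (finrank_kline hv0).symm)
    exact hS.polar_img hww (heq ▸ mem_kline.2 ⟨c, rfl⟩) (heq ▸ self_mem_kline v)
  -- the conjugate translations
  obtain ⟨bw, qw, hf⟩ := hS.exists_frame hw hww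
  let A : Subgroup (OQ Q) :=
    { carrier := {a | ∃ δ : K, ∀ x, a.1 x = g.1 (eich h w (δ • bw) (g.1.symm x))}
      mul_mem' := by
        rintro a c ⟨δ, hδ⟩ ⟨ε, hε⟩
        refine ⟨δ + ε, fun x => ?_⟩
        rw [mul_val, hε, hδ, LinearEquiv.symm_apply_apply,
          hS.eich_add hf.yy (by simp [hf.yb]) (by simp [hf.yb]), add_smul]
      one_mem' := ⟨0, fun x => by simp [eich_apply]⟩
      inv_mem' := by
        rintro a ⟨δ, hδ⟩
        refine ⟨-δ, fun x => ?_⟩
        rw [inv_val, LinearEquiv.symm_apply_eq, hδ, LinearEquiv.symm_apply_apply,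
          hS.eich_add hf.yy (by simp [hf.yb]) (by simp [hf.yb]), neg_smul, add_neg_cancel]
        simp [eich_apply] }
  have hAmem : ∀ δ : K, ∃ a : A, ∀ x, a.1.1 x = g.1 (eich h w (δ • bw) (g.1.symm x)) := by
    intro δ
    obtain ⟨E, -, hE⟩ := hS.exists_eich (b := δ • bw) hf.yy (by simp [hf.yb])
    have e : ∀ x, (g * E * g⁻¹).1 x = g.1 (eich h w (δ • bw) (g.1.symm x)) := fun x => by
      rw [mul_val, mul_val, inv_val, hE]
    exact ⟨⟨g * E * g⁻¹, δ, e⟩, e⟩
  have hAfix : ∀ a ∈ A, a ≠ 1 → fixSpace a = img K g w := by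
    rintro a ⟨δ, hδ⟩ ha
    have hδ0 : δ ≠ 0 := fun e => ha (Subtype.ext (LinearEquiv.ext fun z => by
      rw [hδ, e]; simp [eich_apply]))
    ext x
    rw [mem_fixSpace, hδ, mem_img, ← hS.eich_fixed_iff hf hδ0]
    exact ⟨fun e => g.1.injective (e.trans (g.1.apply_symm_apply x).symm),
      fun e => by rw [e, LinearEquiv.apply_symm_apply]⟩
  have hAU : ∀ a ∈ A, ∀ u ∈ img K g w, a.1 u = u := by
    intro a ha u hu
    by_cases ha1 : a = 1
    · subst ha1; rfl
    · exact mem_fixSpace.1 ((hAfix a ha ha1).symm ▸ hu)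
  have hAH : A ≤ H := by
    rintro a ⟨δ, hδ⟩
    obtain ⟨E, hEM, hE⟩ := hS.exists_eich (b := δ • bw) hf.yy (by simp [hf.yb])
    have e : a = g * E * g⁻¹ := Subtype.ext (LinearEquiv.ext fun x => by
      rw [hδ, mul_val, mul_val, inv_val, hE])
    obtain ⟨p, hp, -, hpow⟩ := hS.exists_pow_of_fix hbare hf hEM fun t => by
      rw [hE, hS.eich_smul_y hf.yy (by simp [hf.yb])]
    refine hA a (e ▸ mul_mem (mul_mem hg hEM) (inv_mem hg)) p hp ?_ (hAU a ⟨δ, hδ⟩ v hvU)
    rw [e, conj_pow, hpow, mul_one, mul_inv_cancel]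
  have hAcard : Nat.card A = Nat.card K := by
    choose f hf' using hAmem
    refine (Nat.card_eq_of_bijective f ⟨fun δ ε e => ?_, fun a => ?_⟩).symm
    · have e1 : eich h w (δ • bw) qw = eich h w (ε • bw) qw := by
        have := hf' δ (g.1 qw)
        rw [e, hf', LinearEquiv.symm_apply_apply] at this
        exact g.1.injective this.symm
      have := congrArg (h bw) e1
      simp only [eich_apply, hf.b_y hS, hf.bq hS, hS.symm qw w, hf.yq, one_smul, map_add, map_sub,
        map_smul, smul_eq_mul, mul_zero, sub_zero, zero_add] at this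
      exact mul_right_cancel₀ hf.bb this
    · obtain ⟨δ, hδ⟩ := a.2
      exact ⟨δ, Subtype.ext (Subtype.ext (LinearEquiv.ext fun x => by rw [hf', hδ]))⟩
  -- the rest of the orbit under the translations
  let X := {S : Submodule F V // S ∈ O ∧ S ≠ img K g w}
  letI actX : MulAction A X :=
    { smul := fun a S => ⟨S.1.map a.1.1.toLinearMap, map_mem_orb S.2.1 (hAH a.2), fun e => S.2.2 (by
        refine Submodule.map_injective_of_injective a.1.1.injective (e.trans ?_)
        refine le_antisymm (fun u hu => ⟨u, hu, hAU _ a.2 u hu⟩) ?_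
        rintro _ ⟨u, hu, rfl⟩
        show a.1.1 u ∈ _
        rw [hAU _ a.2 u hu]
        exact hu)⟩
      one_smul := fun S => Subtype.ext (Submodule.map_id _)
      mul_smul := fun a c S => Subtype.ext (by
        show S.1.map _ = (S.1.map _).map _
        rw [← Submodule.map_comp]
        rfl) }
  obtain ⟨j, hj⟩ : Nat.card A ∣ Nat.card X := by
    refine card_dvd_of_free fun S a hfix => ?_
    by_contra ha1
    have ha1' : a.1 ≠ 1 := fun e => ha1 (Subtype.ext e)
    obtain ⟨g', hg', hS', hvS⟩ := hmem S.1 S.2.1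
    have hbig : 3 < finrank F (fixSpace a.1) := by
      rw [hAfix _ a.2 ha1', finrank_img hw]
      have := hS.five
      omega
    have hle := hS.fix_member hbare hg' hw hww (hHM (hAH a.2))
      (hS'.symm ▸ congrArg Subtype.val hfix) hv0 (hS'.symm ▸ hvS) (hAU _ a.2 v hvU) hbig
    rw [hAfix _ a.2 ha1', hS'] at hle
    refine S.2.2 (Submodule.eq_of_le_of_finrank_eq hle ?_)
    rw [← hS', finrank_img hw, finrank_img hw]
  have hOX : Nat.card O = 1 + Nat.card X := by
    have e : Nat.card X = (O \ {img K g w}).ncard :=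
      Nat.card_congr (Equiv.refl _)
    rw [e, Nat.card_coe_set_eq, add_comm,
      Set.ncard_sdiff_singleton_add_one (hOdef ▸ self_mem_orb) (Set.toFinite O)]
  -- the whole orbit under `C`
  have hC : Nat.card C ∣ Nat.card O := by
    letI actO : MulAction C O :=
      { smul := fun c S => ⟨S.1.map c.1.1.toLinearMap, map_mem_orb S.2 (hCH c.2)⟩
        one_smul := fun S => Subtype.ext (Submodule.map_id _)
        mul_smul := fun a c S => Subtype.ext (by
          show S.1.map _ = (S.1.map _).map _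
          rw [← Submodule.map_comp]
          rfl) }
    refine card_dvd_of_free fun S c hfix => ?_
    by_contra hc1
    have hc1' : c.1 ≠ 1 := fun e => hc1 (Subtype.ext e)
    obtain ⟨g', hg', hS', hvS⟩ := hmem S.1 S.2
    have hfs : fixSpace c.1 = kline F K v := Submodule.ext fun x =>
      mem_fixSpace.trans (hCfix _ c.2 hc1' x)
    have hle := hS.fix_member hbare hg' hw hww (hHM (hCH c.2))
      (hS'.symm ▸ congrArg Subtype.val hfix) hv0 (hS'.symm ▸ hvS)
      ((hCfix _ c.2 hc1' v).2 (self_mem_kline v))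
      (by rw [hfs, finrank_kline hv0]; have := hS.five; omega)
    rw [hfs, hS'] at hle
    exact hKne S.1 S.2 hle
  refine ⟨j, by rw [hOX, hj, hAcard, mul_comm], hC, ?_⟩
  -- members meet in the line of `v` inside its orthogonal
  haveI := Fintype.ofFinite F
  haveI := Fintype.ofFinite V
  haveI : Fintype O := Fintype.ofFinite O
  let L := Submodule.span F {v}
  let W := LinearMap.ker (Q.polarBilin v)
  have hW : finrank F W = 3 * finrank F K - 1 := by
    have hne : Q.polarBilin v ≠ 0 := fun e => hv0 (hS.bnondeg v fun x => by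
      show Q.polarBilin v x = 0
      rw [e, LinearMap.zero_apply])
    have e1 := LinearMap.finrank_range_add_finrank_ker (Q.polarBilin v)
    rw [LinearMap.range_eq_top.2 (LinearMap.surjective_of_ne_zero hne), finrank_top,
      Module.finrank_self, hS.finrank_F] at e1
    show finrank F (LinearMap.ker (Q.polarBilin v)) = _
    omega
  let D : O → Set V := fun S => (S.1 : Set V) \ (L : Set V)
  have hdisj : Pairwise fun S T => Disjoint (D S) (D T) := by
    intro S T hST
    rw [Set.disjoint_left]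
    rintro x ⟨hxS, hxL⟩ ⟨hxT, -⟩
    obtain ⟨g₁, hg₁, h1, hv1⟩ := hmem S.1 S.2
    obtain ⟨g₂, hg₂, h2, hv2⟩ := hmem T.1 T.2
    have hm := hS.members_meet hbare hg₁ hg₂ hw hww hw hww
      (by rw [h1, h2]; exact fun e => hST (Subtype.ext e))
    rw [h1, h2] at hm
    have hle : L ≤ S.1 ⊓ T.1 := Submodule.span_le.2 (Set.singleton_subset_iff.2 ⟨hv1, hv2⟩)
    have heq := Submodule.eq_of_le_of_finrank_le hle (by rw [finrank_span_singleton hv0]; exact hm)
    exact hxL (heq ▸ ⟨hxS, hxT⟩)
  have hsize : ∀ S : O, (D S).ncard = Nat.card K - Nat.card F := by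
    intro S
    obtain ⟨g', -, hS', hvS⟩ := hmem S.1 S.2
    have hLS : (L : Set V) ⊆ S.1 := fun z hz =>
      (Submodule.span_le.2 (Set.singleton_subset_iff.2 hvS)) hz
    rw [show D S = (S.1 : Set V) \ L from rfl, Set.ncard_sdiff hLS, ← Nat.card_coe_set_eq,
      ← Nat.card_coe_set_eq]
    show Nat.card S.1 - Nat.card L = _
    rw [Module.natCard_eq_pow_finrank (K := F) (V := S.1),
      Module.natCard_eq_pow_finrank (K := F) (V := L),
      Module.natCard_eq_pow_finrank (K := F) (V := K), ← hS', finrank_img hw,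
      finrank_span_singleton hv0, pow_one]
  have hsub : ∀ S : O, D S ⊆ (W : Set V) \ {0} := by
    intro S x hx
    obtain ⟨g', -, hS', hvS⟩ := hmem S.1 S.2
    exact ⟨hS.polar_img hww (hS'.symm ▸ hvS) (hS'.symm ▸ hx.1),
      fun e => hx.2 ((Set.mem_singleton_iff.1 e) ▸ L.zero_mem)⟩
  have hcount : (⋃ S : O, D S).ncard = Nat.card O * (Nat.card K - Nat.card F) := by
    rw [Set.ncard_iUnion_of_finite (fun S => Set.toFinite _) hdisj, finsum_eq_sum_of_fintype]
    simp [hsize, Nat.card_eq_fintype_card]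
  rw [← hcount]
  calc (⋃ S : O, D S).ncard ≤ ((W : Set V) \ {0}).ncard :=
        Set.ncard_le_ncard (Set.iUnion_subset hsub) (Set.toFinite _)
    _ < (W : Set V).ncard := Set.ncard_sdiff_singleton_lt_of_mem W.zero_mem (Set.toFinite _)
    _ = Nat.card F ^ (3 * finrank F K - 1) := by
      rw [← Nat.card_coe_set_eq]
      show Nat.card W = _
      rw [Module.natCard_eq_pow_finrank (K := F) (V := W), hW]

end Setup

end Cfsg.Agent.MaxSub.OrthExt3
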