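import Cfsg.Agent.MaxSub.OrthExt3.Space

/-!
An element stabilising a singular line, when no skew map at that line gives elements of the
overgroup, is semilinear on the orthogonal of the line.
-/

set_option autoImplicit false
set_option linter.style.haveILetI false
set_option linter.unusedSectionVars false

namespace Cfsg.Agent.MaxSub.OrthExt3

open QuadraticMap Module Cfsg.Agent.Classical Cfsg.Agent.MaxSub.ExtField

universe u v w

variable {F : Type u} {K : Type w} {V : Type v} [Field F] [Field K] [Algebra F K] [AddCommGroup V]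
  [Module F V] [Module K V] [IsScalarTower F K V] [FiniteDimensional F K] [FiniteDimensional F V]
  [FiniteDimensional K V] [Finite F] [Finite K]
  {Q : QuadraticForm F V} {h : LinearMap.BilinForm K V} {M : Subgroup (OQ Q)}

namespace Setup

variable (hS : Setup Q h M)
include hS

/-- The shape of an element stabilising a line. -/
theorem pure {y b q : V} (hnone : space h M y = ⊥) (hf : Frame h y b q) {a : OQ Q} (ha : a ∈ M)
    (hL : ∀ t : K, a.1 (t • y) ∈ kline F K y) :
    ∃ (θ : K ≃ₐ[F] K) (τ φ κ : K), τ ≠ 0 ∧ φ ≠ 0 ∧ φ * φ * h b b = θ (h b b) ∧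
      (∀ t : K, a.1 (t • y) = (θ t / τ) • y) ∧ (∀ v, h y (a.1 v) = τ * θ (h y v)) ∧
      ∀ v, h b (a.1 v) / h b b = φ * θ (h b v / h b b) + κ * θ (h y v) := by
  classical
  obtain ⟨η, hη⟩ : ∃ η, η = h b b := ⟨_, rfl⟩
  have hη0 : η ≠ 0 := hη ▸ hf.bb
  have hqy := hf.qy hS
  have hby := hf.b_y hS
  have hbq := hf.bq hS
  have h2 := hS.twoK
  let iy : K →ₗ[F] V := (LinearMap.toSpanSingleton K V y).restrictScalars F
  let ib : K →ₗ[F] V := (LinearMap.toSpanSingleton K V b).restrictScalars F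
  let iq : K →ₗ[F] V := (LinearMap.toSpanSingleton K V q).restrictScalars F
  let pq : V →ₗ[F] K := (h q).restrictScalars F
  let py : V →ₗ[F] K := (h y).restrictScalars F
  let pb : V →ₗ[F] K := LinearMap.mulLeft F η⁻¹ ∘ₗ (h b).restrictScalars F
  let T : K →ₗ[F] K := pq ∘ₗ a.1.toLinearMap ∘ₗ iy
  let T' : K →ₗ[F] K := py ∘ₗ a.1.toLinearMap ∘ₗ iq
  let Φ : K →ₗ[F] K := pb ∘ₗ a.1.toLinearMap ∘ₗ ib
  let Γ : K →ₗ[F] K := pb ∘ₗ a.1.toLinearMap ∘ₗ iq
  let Λ : K →ₗ[F] K := pq ∘ₗ a.1.toLinearMap ∘ₗ ib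
  have hT : ∀ t, a.1 (t • y) = T t • y := by
    intro t
    obtain ⟨c, hc⟩ := mem_kline.1 (hL t)
    have e : T t = c := by
      show h q (a.1 (t • y)) = c
      rw [← hc, map_smul, hqy, smul_eq_mul, mul_one]
    rw [e, hc]
  have hTsurj : ∀ c, ∃ t, T t = c := by
    refine LinearMap.surjective_of_injective (f := T) fun s t hst => ?_
    exact smul_left_injective K hf.y_ne (a.1.injective
      (show a.1 (s • y) = a.1 (t • y) by rw [hT, hT, hst]))
  have hperp : ∀ v, h y v = 0 → h y (a.1 v) = 0 := fun v hv => hS.h_eq_zero fun c => by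
    obtain ⟨t, ht⟩ := hTsurj c
    rw [← ht, ← hT, OQ_polar, hS.polar_smul, hv, mul_zero, map_zero]
  have hT' : ∀ v, h y (a.1 v) = T' (h y v) := by
    intro v
    have e : v = (v - h y v • q) + h y v • q := (sub_add_cancel _ _).symm
    conv_lhs => rw [e, map_add, map_add, hperp _ (by simp [hf.yq]), zero_add]
    rfl
  have hbline : ∀ β, a.1 (β • b) = Λ β • y + Φ β • b := by
    intro β
    have e := hf.perp_eq hS (hperp (β • b) (by simp [hf.yb]))
    rw [e]
    show _ = h q (a.1 (β • b)) • y + (η⁻¹ * h b (a.1 (β • b))) • b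
    rw [div_eq_inv_mul, hη]
  have hTT : ∀ t c, Algebra.trace F K (T t * T' c) = Algebra.trace F K (t * c) := by
    intro t c
    have e := OQ_polar a (t • y) (c • q)
    rw [hT, hS.polar_smul, hT', hS.polar_smul] at e
    simpa [hf.yq] using e
  have hT'inj : Function.Injective T' := by
    rw [injective_iff_map_eq_zero]
    intro c hc
    refine ext_trace (F := F) fun t => ?_
    rw [← hTT, hc, mul_zero, mul_zero, map_zero]
  let e' : K ≃ₗ[F] K := LinearEquiv.ofBijective T' ⟨hT'inj, LinearMap.surjective_of_injective hT'inj⟩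
  have he' : ∀ c, T' (e'.symm c) = c := fun c => e'.apply_symm_apply c
  have he'' : ∀ c, e'.symm (T' c) = c := fun c => e'.symm_apply_apply c
  have hainv : ∀ v, h y (a.1.symm v) = e'.symm (h y v) := by
    intro v
    have := congrArg e'.symm (hT' (a.1.symm v))
    rwa [LinearEquiv.apply_symm_apply, he'', eq_comm] at this
  have hΦinj : Function.Injective Φ := by
    rw [injective_iff_map_eq_zero]
    intro β hβ
    obtain ⟨t, ht⟩ := hTsurj (Λ β)
    have e : a.1 (β • b) = a.1 (t • y) := by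
      rw [hbline, hβ, zero_smul, add_zero, hT, ht]
    have := congrArg (h b) (a.1.injective e)
    simpa [hby, hη0, ← hη] using this
  have hsum : ∀ v, η⁻¹ * h b (a.1 v) = Φ (η⁻¹ * h b v) + Γ (h y v) := by
    intro v
    conv_lhs => rw [hf.expand_vec hS v, map_add a.1, map_add a.1, hT, map_add (h b), map_add (h b)]
    rw [map_smul, hby, smul_zero, zero_add, mul_add, ← hη, div_eq_inv_mul]
    rfl
  -- the commutators of conjugate and plain translations
  have hC : ∀ γ δ : K, LinearMap.mulLeft F (η * δ) ∘ₗ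
      (Φ ∘ₗ LinearMap.mulLeft F γ ∘ₗ e'.symm.toLinearMap) -
      adj (Φ ∘ₗ LinearMap.mulLeft F γ ∘ₗ e'.symm.toLinearMap) ∘ₗ LinearMap.mulLeft F (η * δ)
        = 0 := by
    intro γ δ
    obtain ⟨X, hX⟩ : ∃ X, X = Φ ∘ₗ LinearMap.mulLeft F γ ∘ₗ e'.symm.toLinearMap := ⟨_, rfl⟩
    rw [← hX]
    refine (Submodule.mem_bot F).1 (hnone ▸ (mem_space hf.yy).2 fun t => ?_)
    obtain ⟨E, hEM, hE⟩ := hS.exists_eich (b := γ • b) hf.yy (by simp [hf.yb])
    obtain ⟨E', hE'M, hE'⟩ := hS.exists_eich (b := (t • δ) • b) hf.yy (by simp [hf.yb])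
    have hk : ∀ v, (a * E * a⁻¹).1 v - v - X (h y v) • b ∈ kline F K y := by
      intro v
      obtain ⟨u, rfl⟩ : ∃ u, a.1 u = v := ⟨_, a.1.apply_symm_apply v⟩
      rw [mul_val, mul_val, inv_val, LinearEquiv.symm_apply_apply, hT', hE, eich_apply, map_sub,
        map_add]
      simp only [hX, LinearMap.comp_apply, LinearEquiv.coe_coe, he'', LinearMap.mulLeft_apply,
        hS.symm u y, smul_smul, hbline, hT, mul_comm (h y u) γ]
      exact mem_kline.2 ⟨Λ (γ * h y u) - T _, by rw [sub_smul]; abel⟩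
    have hk' : ∀ v, E'.1 v - v - (fun c => (c * (t • δ)) • b) (h y v) ∈ kline F K y := by
      intro v
      rw [hE', eich_apply, hS.symm v y]
      exact mem_kline.2 ⟨-(h v ((t • δ) • b) + h ((t • δ) • b) ((t • δ) • b) / 2 * h y v), by
        rw [neg_smul, smul_smul]; abel⟩
    refine ⟨(a * E * a⁻¹) * E' * (a * E * a⁻¹)⁻¹ * E'⁻¹,
      mul_mem (mul_mem (mul_mem ?_ hE'M) (inv_mem ?_)) (inv_mem hE'M), hS.eq_of_form fun v v' => ?_⟩
    · exact mul_mem (mul_mem ha hEM) (inv_mem ha)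
    · exact mul_mem (mul_mem ha hEM) (inv_mem ha)
    have := hS.commutator_form hf.yy (φ := fun c => X c • b)
      (φ' := fun c => (c * (t • δ)) • b) (fun c => by simp [hf.yb]) (fun c => by simp [hf.yb])
      (by simp) (by simp) hk hk' v v'
    rw [this, hS.polar_bline, hS.polar_bline, ← hη]
    have e1 : ∀ c d : K, η * (c * (t • δ)) * d = t • (η * δ * c * d) := fun c d => by
      rw [Algebra.smul_def, Algebra.smul_def]; ring
    have e2 : η * X (h y v) * (h y v' * (t • δ)) = t • (h y v' * (η * δ * X (h y v))) := by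
      rw [Algebra.smul_def, Algebra.smul_def]; ring
    rw [e1, e2, LinearMap.smul_apply, mul_smul_comm, LinearMap.sub_apply, mul_sub, map_smul,
      map_smul, map_smul, map_sub, LinearMap.comp_apply, LinearMap.comp_apply (f := adj X),
      LinearMap.mulLeft_apply, LinearMap.mulLeft_apply, ← trace_adj X, smul_sub,
      mul_comm (η * δ * h y v) (X (h y v'))]

  have hcomm : ∀ γ c, Φ (γ * e'.symm c) = c * Φ (γ * e'.symm 1) := by
    intro γ c
    set X := Φ ∘ₗ LinearMap.mulLeft F γ ∘ₗ e'.symm.toLinearMap with hX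
    have hm : ∀ m x, m * X x = adj X (m * x) := by
      intro m x
      have := LinearMap.congr_fun (hC γ (m / η)) x
      rw [mul_div_cancel₀ _ hη0, LinearMap.sub_apply, LinearMap.zero_apply, sub_eq_zero] at this
      exact this
    show X c = c * X 1
    rw [hm, mul_one, ← one_mul c, ← hm, one_mul, one_mul]
  obtain ⟨e, hedef⟩ : ∃ e, e = e'.symm 1 := ⟨_, rfl⟩
  have he0 : e ≠ 0 := fun h0 => one_ne_zero (by rw [← he' 1, ← hedef, h0, map_zero] : (1 : K) = 0)
  have hφ0 : Φ 1 ≠ 0 := fun h0 => one_ne_zero (hΦinj (h0.trans (map_zero Φ).symm))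
  have hΦ : ∀ z, Φ z = T' (e * z) * Φ 1 := by
    intro z
    have := hcomm e⁻¹ (T' (e * z))
    rw [he'', ← hedef, inv_mul_cancel_left₀ he0, inv_mul_cancel₀ he0] at this
    exact this
  let S : K →ₗ[F] K := T' ∘ₗ LinearMap.mulLeft F e
  have hS1 : S 1 = 1 := by
    show T' (e * 1) = 1
    rw [mul_one, hedef, he']
  have hSmul : ∀ w z, S (w * z) = S w * S z := by
    intro w z
    have := hcomm (w / e) (S z)
    rw [show e'.symm (S z) = e * z from he'' _, ← hedef, div_mul_cancel₀ _ he0,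
      show w / e * (e * z) = w * z by field_simp, hΦ, hΦ w, ← mul_assoc] at this
    simp only [mul_assoc e w z] at this
    show T' (e * (w * z)) = T' (e * w) * T' (e * z)
    refine mul_right_cancel₀ hφ0 ?_
    rw [this]
    show T' (e * z) * _ = _
    ring
  have hSinj : Function.Injective (AlgHom.ofLinearMap S hS1 hSmul) :=
    hT'inj.comp (mul_right_injective₀ he0)
  let θ : K ≃ₐ[F] K := AlgEquiv.ofBijective (AlgHom.ofLinearMap S hS1 hSmul)
    ⟨hSinj, Finite.surjective_of_injective hSinj⟩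
  have hθ : ∀ z, θ z = T' (e * z) := fun z => rfl
  obtain ⟨τ, hτdef⟩ : ∃ τ, τ = T' 1 := ⟨_, rfl⟩
  have hτ0 : τ ≠ 0 := fun h0 => one_ne_zero (hT'inj ((hτdef.symm.trans h0).trans (map_zero T').symm))
  have hτe : τ * θ e = 1 := by
    have e1 : τ = θ e⁻¹ := by rw [hθ, mul_inv_cancel₀ he0, hτdef]
    rw [e1, ← map_mul, inv_mul_cancel₀ he0, map_one]
  have hT'θ : ∀ c, T' c = τ * θ c := by
    intro c
    have : T' c = θ (c / e) := by rw [hθ, mul_div_cancel₀ _ he0]
    rw [this, map_div₀, eq_inv_of_mul_eq_one_left hτe, div_eq_inv_mul]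
  have hΦθ : ∀ z, Φ z = Φ 1 * θ z := fun z => by rw [hθ, hΦ, mul_comm]
  obtain ⟨φ, hφdef⟩ : ∃ φ, φ = Φ 1 := ⟨_, rfl⟩
  rw [← hφdef] at hΦθ hφ0
  have htrθ : ∀ x, Algebra.trace F K (θ x) = Algebra.trace F K x :=
    fun x => Algebra.trace_eq_of_algEquiv θ x
  have hTθ : ∀ t, T t = θ t / τ := by
    intro t
    rw [eq_div_iff hτ0]
    refine ext_trace (F := F) fun c => ?_
    obtain ⟨c, rfl⟩ := θ.surjective c
    rw [← map_mul θ c t, htrθ, mul_comm c t, ← hTT t c, hT'θ]
    ring_nf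
  have hφη : φ * φ * η = θ η := by
    refine ext_trace (F := F) fun x => ?_
    obtain ⟨β, rfl⟩ := θ.surjective x
    rw [← map_mul, htrθ]
    have := OQ_polar a (β • b) ((1 : K) • b)
    rw [hbline, hbline, hS.polar_bline, ← hη, polar_add_left, polar_add_right, polar_add_right,
      hS.polar_smul, hS.polar_smul, hS.polar_smul', hS.polar_bline, ← hη, hΦθ, hΦθ, map_one θ] at this
    simp only [map_smul, LinearMap.smul_apply, hf.yy, hf.yb, hby, smul_eq_mul, mul_zero, map_zero,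
      zero_add, mul_one] at this
    rw [show β * η = η * β by ring, ← this, show θ β * (φ * φ * η) = η * (φ * θ β) * φ by ring]
  -- the translation parts
  obtain ⟨κ, hκdef⟩ : ∃ κ, κ = Γ 1 := ⟨_, rfl⟩
  have hB : ∀ γ, Λ ∘ₗ LinearMap.mulLeft F γ ∘ₗ e'.symm.toLinearMap +
      LinearMap.mulLeft F (φ * θ γ / τ * η) ∘ₗ Γ ∘ₗ e'.symm.toLinearMap = 0 := by
    intro γ
    refine (Submodule.mem_bot F).1 (hnone ▸ (mem_space hf.yy).2 fun t => ?_)
    obtain ⟨γ', hγ'⟩ : ∃ γ', γ' = φ * θ (t • γ) / τ := ⟨_, rfl⟩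
    obtain ⟨E, hEM, hE⟩ := hS.exists_eich (b := (t • γ) • b) hf.yy (by simp [hf.yb])
    obtain ⟨E', hE'M, hE'⟩ := hS.exists_eich (b := γ' • b) hf.yy (by simp [hf.yb])
    refine ⟨E'⁻¹ * (a * E * a⁻¹), mul_mem (inv_mem hE'M) (mul_mem (mul_mem ha hEM) (inv_mem ha)),
      fun v => ?_⟩
    rw [mul_val, mul_val, mul_val, inv_val, inv_val, LinearEquiv.symm_apply_eq, map_add, hE',
      hE', hS.eich_smul_y hf.yy (by simp [hf.yb])]
    obtain ⟨u, rfl⟩ : ∃ u, a.1 u = v := ⟨_, a.1.apply_symm_apply v⟩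
    rw [LinearEquiv.symm_apply_apply, hE, eich_apply, eich_apply, hS.symm (a.1 u) y,
      hS.symm u y, map_sub a.1, map_add a.1, smul_smul, smul_smul, hbline, hT, hΦθ,
      hS.symm u ((t • γ) • b), hS.symm (a.1 u) (γ' • b)]
    simp only [LinearMap.smul_apply, LinearMap.add_apply, LinearMap.comp_apply,
      LinearEquiv.coe_coe, LinearMap.mulLeft_apply, hT', he'', map_smul, smul_eq_mul, ← hη]
    have e1 : h b (a.1 u) = η * (φ * θ (η⁻¹ * h b u) + Γ (h y u)) := by
      rw [← hΦθ, ← hsum, mul_inv_cancel_left₀ hη0]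
    have e2 : ∀ x : K, Λ (x * (t • γ)) = t • Λ (γ * x) := fun x => by
      rw [mul_smul_comm, map_smul, mul_comm]
    rw [e1, e2, hT'θ, hTθ, hγ', map_smul]
    simp only [Algebra.smul_def, map_add, map_mul, map_div₀, map_ofNat, map_inv₀, ← hφη,
      AlgEquiv.commutes]
    match_scalars <;> (field_simp; try ring)
  have hB' : ∀ γ c, Λ (γ * c) + φ * θ γ / τ * η * Γ c = 0 := fun γ c => by
    have := LinearMap.congr_fun (hB γ) (T' c)
    simp [LinearMap.add_apply, he''] at this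
    linear_combination this
  have hΓ : ∀ c, Γ c = κ * θ c := by
    intro c
    have h1 := hB' 1 c
    have h3 := hB' c 1
    rw [one_mul, map_one, mul_one] at h1
    rw [mul_one, ← hκdef] at h3
    have h4 : φ / τ * η * (Γ c - κ * θ c) = 0 := by linear_combination h1 - h3
    exact sub_eq_zero.1 ((mul_eq_zero.1 h4).resolve_left
      (mul_ne_zero (div_ne_zero hφ0 hτ0) hη0))
  refine ⟨θ, τ, φ, κ, hτ0, hφ0, by rw [← hη, hφη], fun t => by rw [hT, hTθ],
    fun v => by rw [hT', hT'θ], fun v => ?_⟩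
  rw [← hη, div_eq_inv_mul, hsum, hΦθ, hΓ, div_eq_inv_mul]

end Setup

end Cfsg.Agent.MaxSub.OrthExt3
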