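import Cfsg.Agent.MaxSub.OrthExt3.Space

/-!
Squares of isometries fixing an anisotropic vector: the torus, the rotations and a half turn.
-/

set_option autoImplicit false
set_option linter.style.haveILetI false
set_option linter.unusedSectionVars false

namespace Cfsg.Agent.MaxSub.OrthExt3

open QuadraticMap Module Cfsg.Agent.Classical Cfsg.Agent.MaxSub.ExtField

universe u v w

variable {F : Type u} {K : Type w} {V : Type v} [Field F] [Field K] [Algebra F K] [AddCommGroup V]
  [Module F V] [Module K V] [IsScalarTower F K V] [FiniteDimensional F K] [FiniteDimensional F V]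
  [FiniteDimensional K V] [Finite F] [Finite K]
  {Q : QuadraticForm F V} {h : LinearMap.BilinForm K V} {M : Subgroup (OQ Q)}

/-- An orthogonal triple of anisotropic vectors. -/
structure Tri (h : LinearMap.BilinForm K V) (a e f : V) : Prop where
  aa : h a a ≠ 0
  ee : h e e ≠ 0
  ff : h f f ≠ 0
  ae : h a e = 0
  af : h a f = 0
  ef : h e f = 0

/-- The rotation with axis `a`. -/
noncomputable def rot (h : LinearMap.BilinForm K V) (e f : V) (c s : K) (x : V) : V :=
  x + ((c - 1) * (h e x / h e e) - h f f / h e e * s * (h f x / h f f)) • e +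
    (s * (h e x / h e e) + (c - 1) * (h f x / h f f)) • f

namespace Setup

variable (hS : Setup Q h M)
include hS

lemma tri_expand {a e f : V} (ht : Tri h a e f) (x : V) :
    x = (h a x / h a a) • a + (h e x / h e e) • e + (h f x / h f f) • f := by
  classical
  have hea : h e a = 0 := by rw [hS.symm, ht.ae]
  have hfa : h f a = 0 := by rw [hS.symm, ht.af]
  have hfe : h f e = 0 := by rw [hS.symm, ht.ef]
  have hli : LinearIndependent K ![a, e, f] := by
    rw [Fintype.linearIndependent_iff]
    intro g hg
    simp only [Fin.sum_univ_three, Matrix.cons_val_zero, Matrix.cons_val_one,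
      Matrix.cons_val_two, Matrix.tail_cons, Matrix.head_cons] at hg
    have h1 := congrArg (h a) hg
    have h2 := congrArg (h e) hg
    have h3 := congrArg (h f) hg
    simp [ht.aa, ht.ae, ht.af] at h1
    simp [ht.ee, hea, ht.ef] at h2
    simp [ht.ff, hfa, hfe] at h3
    intro i
    fin_cases i <;> assumption
  have hspan := hli.span_eq_top_of_card_eq_finrank (by rw [Fintype.card_fin, hS.dim])
  refine sub_eq_zero.1 (hS.nondeg _ fun u => ?_)
  have hu : u ∈ Submodule.span K (Set.range ![a, e, f]) := hspan ▸ Submodule.mem_top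
  induction hu using Submodule.span_induction with
  | mem x hx =>
    obtain ⟨i, rfl⟩ := hx
    fin_cases i
    · simp [ht.ae, ht.af, div_mul_cancel₀ _ ht.aa]
    · simp [hea, ht.ef, div_mul_cancel₀ _ ht.ee]
    · simp [hfa, hfe, div_mul_cancel₀ _ ht.ff]
  | zero => simp
  | add x z _ _ hx hz => rw [map_add, LinearMap.add_apply, hx, hz, add_zero]
  | smul c x _ hx => rw [map_smul, LinearMap.smul_apply, hx, smul_zero]

lemma rot_rot {a e f : V} (ht : Tri h a e f) (c s c' s' : K) (x : V) :
    rot h e f c s (rot h e f c' s' x) =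
      rot h e f (c * c' - h f f / h e e * (s * s')) (c * s' + s * c') x := by
  have hfe : h f e = 0 := by rw [hS.symm, ht.ef]
  simp only [rot, map_add, map_smul, smul_eq_mul, ht.ef, hfe, mul_zero, add_zero]
  match_scalars <;> (field_simp [ht.ee, ht.ff]; try ring)

omit hS in
lemma rot_one {e f : V} (x : V) : rot h e f 1 0 x = x := by simp [rot]

lemma exists_rot {a e f : V} (ht : Tri h a e f) {c s : K}
    (hcs : c * c + h f f / h e e * (s * s) = 1) :
    ∃ g : OQ Q, (∀ (k : K) x, g.1 (k • x) = k • g.1 x) ∧ ∀ x, g.1 x = rot h e f c s x := by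
  let s' : V →ₗ[K] V :=
    { toFun := rot h e f c s
      map_add' := fun x z => by simp only [rot, map_add]; module
      map_smul' := fun k x => by
        simp only [rot, map_smul, smul_eq_mul, RingHom.id_apply]
        module }
  let t' : V →ₗ[K] V :=
    { toFun := rot h e f c (-s)
      map_add' := fun x z => by simp only [rot, map_add]; module
      map_smul' := fun k x => by
        simp only [rot, map_smul, smul_eq_mul, RingHom.id_apply]
        module }
  let f' : V ≃ₗ[K] V := LinearEquiv.ofLinearMap s' t'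
    (LinearMap.ext fun x => by
      show rot h e f c s (rot h e f c (-s) x) = x
      rw [hS.rot_rot ht, show c * c - h f f / h e e * (s * -s) = 1 by linear_combination hcs,
        show c * -s + s * c = 0 by ring, rot_one])
    (LinearMap.ext fun x => by
      show rot h e f c (-s) (rot h e f c s x) = x
      rw [hS.rot_rot ht, show c * c - h f f / h e e * (-s * s) = 1 by linear_combination hcs,
        show c * s + -s * c = 0 by ring, rot_one])
  obtain ⟨g, hg⟩ := hS.exists_iso (f := f') fun u v => by
    show h (rot h e f c s u) (rot h e f c s v) = h u v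
    have hfe : h f e = 0 := by rw [hS.symm, ht.ef]
    simp only [rot, map_add, map_smul, LinearMap.add_apply, LinearMap.smul_apply, smul_eq_mul,
      ht.ef, hfe, hS.symm u e, hS.symm u f]
    have hcs' : c * c * h e e + h f f * (s * s) = h e e := by
      have := congrArg (· * h e e) hcs
      field_simp [ht.ee] at this
      linear_combination this
    field_simp [ht.ee, ht.ff]
    linear_combination (h e u * h e v * h f f + h f u * h f v * h e e) * hcs'
  exact ⟨g, fun k x => by rw [hg, hg]; exact map_smul f' k x, hg⟩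

/-- The squares of the rotations about `a`. -/
theorem exists_rot_group {a e f : V} (ht : Tri h a e f)
    (hns : ¬ IsSquare (-(h f f / h e e))) :
    ∃ C : Subgroup (OQ Q), C ≤ M ∧ (∀ c ∈ C, c ≠ 1 → ∀ x, c.1 x = x ↔ x ∈ kline F K a) ∧
      2 * Nat.card C = Nat.card K + 1 := by
  classical
  haveI := hS.finiteOQ
  obtain ⟨δ, hδ⟩ : ∃ δ, δ = h f f / h e e := ⟨_, rfl⟩
  rw [← hδ] at hns
  have hea : h e a = 0 := by rw [hS.symm, ht.ae]
  have hfa : h f a = 0 := by rw [hS.symm, ht.af]
  have hfe : h f e = 0 := by rw [hS.symm, ht.ef]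
  have hinj : ∀ {c s c' s' : K}, (∀ x, rot h e f c s x = rot h e f c' s' x) → c = c' ∧ s = s' := by
    intro c s c' s' hx
    have h1 := congrArg (h e) (hx e)
    have h2 := congrArg (h f) (hx e)
    simp [rot, ht.ee, ht.ef, hfe] at h1
    simp [rot, ht.ff, ht.ee, hfe] at h2
    exact ⟨h1, h2⟩
  let R : Subgroup (OQ Q) :=
    { carrier := {g | ∃ c s, c * c + δ * (s * s) = 1 ∧ ∀ x, g.1 x = rot h e f c s x}
      mul_mem' := by
        rintro g g' ⟨c, s, hcs, hg⟩ ⟨c', s', hcs', hg'⟩
        refine ⟨c * c' - δ * (s * s'), c * s' + s * c', ?_, fun x => ?_⟩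
        · linear_combination (c' * c' + δ * (s' * s')) * hcs + hcs'
        · rw [mul_val, hg', hg, hS.rot_rot ht, hδ]
      one_mem' := ⟨1, 0, by ring, fun x => (rot_one x).symm⟩
      inv_mem' := by
        rintro g ⟨c, s, hcs, hg⟩
        refine ⟨c, -s, by linear_combination hcs, fun x => ?_⟩
        rw [inv_val, LinearEquiv.symm_apply_eq, hg, hS.rot_rot ht, ← hδ,
          show c * c - δ * (s * -s) = 1 by linear_combination hcs,
          show c * -s + s * c = 0 by ring, rot_one] }
  have hcomm : ∀ g ∈ R, ∀ g' ∈ R, g * g' = g' * g := by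
    rintro g ⟨c, s, -, hg⟩ g' ⟨c', s', -, hg'⟩
    refine Subtype.ext (LinearEquiv.ext fun x => ?_)
    rw [mul_val, mul_val, hg', hg, hS.rot_rot ht, hg, hg', hS.rot_rot ht]
    congr 1 <;> ring
  let sq₂ : R →* OQ Q :=
    { toFun := fun g => g.1 * g.1
      map_one' := by simp
      map_mul' := fun g g' => by
        show g.1 * g'.1 * (g.1 * g'.1) = g.1 * g.1 * (g'.1 * g'.1)
        rw [mul_assoc, ← mul_assoc g'.1, hcomm _ g'.2 _ g.2]
        group }
  refine ⟨sq₂.range, ?_, ?_, ?_⟩
  · rintro _ ⟨⟨g, c, s, hcs, hg⟩, rfl⟩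
    obtain ⟨g', hlin, hg'⟩ := hS.exists_rot ht (hδ ▸ hcs)
    rw [show sq₂ ⟨g, c, s, hcs, hg⟩ = g' * g' by
      have e : g = g' := Subtype.ext (LinearEquiv.ext fun x => by rw [hg, hg'])
      show g * g = _
      rw [e]]
    exact hS.lin g' hlin
  · rintro _ ⟨g, rfl⟩ hne x
    obtain ⟨c, s, hcs, hg⟩ : g.1 * g.1 ∈ R := mul_mem g.2 g.2
    show (g.1 * g.1).1 x = x ↔ _
    rw [hg]
    constructor
    · intro hx
      have k1 : (c - 1) * (h e x / h e e) - δ * s * (h f x / h f f) = 0 := by
        have e1 := congrArg (h e) hx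
        simp only [rot, map_add, map_smul, smul_eq_mul, ht.ef, mul_zero, add_zero, ← hδ] at e1
        exact (mul_eq_zero.1 (show _ * h e e = 0 by linear_combination e1)).resolve_right ht.ee
      have k2 : s * (h e x / h e e) + (c - 1) * (h f x / h f f) = 0 := by
        have e1 := congrArg (h f) hx
        simp only [rot, map_add, map_smul, smul_eq_mul, hfe, mul_zero, add_zero] at e1
        exact (mul_eq_zero.1 (show _ * h f f = 0 by linear_combination e1)).resolve_right ht.ff
      have hc1 : c ≠ 1 := fun hc => hne (Subtype.ext (LinearEquiv.ext fun z => by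
        have hδ0 : δ ≠ 0 := by rw [hδ]; exact div_ne_zero ht.ff ht.ee
        have hs : s = 0 := by
          rw [hc] at hcs
          exact mul_self_eq_zero.1 ((mul_eq_zero.1 (by linear_combination hcs : δ * (s * s) = 0)).resolve_left hδ0)
        show (g.1 * g.1).1 z = z
        rw [hg, hc, hs, rot_one]))
      have hα : h e x / h e e = 0 := by
        have e1 : 2 * (1 - c) * (h e x / h e e) = 0 := by
          linear_combination (c - 1) * k1 + δ * s * k2 - h e x / h e e * hcs
        exact (mul_eq_zero.1 e1).resolve_left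
          (mul_ne_zero hS.twoK (sub_ne_zero.2 (Ne.symm hc1)))
      have hβ : h f x / h f f = 0 := by
        rw [hα, mul_zero, zero_add] at k2
        exact (mul_eq_zero.1 k2).resolve_left (sub_ne_zero.2 hc1)
      refine mem_kline.2 ⟨h a x / h a a, ?_⟩
      conv_rhs => rw [hS.tri_expand ht x, hα, hβ, zero_smul, zero_smul, add_zero, add_zero]
    · intro hx
      obtain ⟨k, rfl⟩ := mem_kline.1 hx
      simp [rot, hea, hfa]
  · -- counting
    have hδt : ∀ t : K, 1 + δ * (t * t) ≠ 0 := fun t ht0 => hns ⟨1 / t, by
      have : t ≠ 0 := fun e => one_ne_zero (α := K) (by simpa [e] using ht0)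
      field_simp
      linear_combination -ht0⟩
    have hRcard : Nat.card R = Nat.card K + 1 := by
      have hex : ∀ t : K, ∃ g : R, ∀ x, g.1.1 x = rot h e f
          ((1 - δ * (t * t)) / (1 + δ * (t * t))) (2 * t / (1 + δ * (t * t))) x := by
        intro t
        have hcs : (1 - δ * (t * t)) / (1 + δ * (t * t)) * ((1 - δ * (t * t)) / (1 + δ * (t * t))) +
            δ * (2 * t / (1 + δ * (t * t)) * (2 * t / (1 + δ * (t * t)))) = 1 := by
          have h0 := hδt t
          obtain ⟨D, hD⟩ : ∃ D, D = 1 + δ * (t * t) := ⟨_, rfl⟩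
          rw [← hD] at h0 ⊢
          field_simp
          rw [hD]
          ring
        obtain ⟨g, -, hg⟩ := hS.exists_rot ht (hδ ▸ hcs)
        rw [← hδ] at hg
        exact ⟨⟨g, _, _, hcs, hg⟩, hg⟩
      obtain ⟨J, hJ⟩ : ∃ g : R, ∀ x, g.1.1 x = rot h e f (-1) 0 x := by
        obtain ⟨g, -, hg⟩ := hS.exists_rot ht (c := -1) (s := 0) (by ring)
        exact ⟨⟨g, -1, 0, by ring, hg⟩, hg⟩
      choose G hG using hex
      rw [← Finite.card_option]
      refine (Nat.card_eq_of_bijective (fun o : Option K => o.elim J G) ⟨?_, ?_⟩).symm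
      · rintro (_ | t) (_ | t') he
        · rfl
        · exfalso
          obtain ⟨h1, -⟩ := hinj fun x => ((hJ x).symm.trans (by rw [show J = G t' from he])).trans (hG t' x)
          rw [eq_div_iff (hδt t')] at h1
          exact hS.twoK (by linear_combination -h1)
        · exfalso
          obtain ⟨h1, -⟩ := hinj fun x => ((hJ x).symm.trans (by rw [show J = G t from he.symm])).trans (hG t x)
          rw [eq_div_iff (hδt t)] at h1
          exact hS.twoK (by linear_combination -h1)
        · obtain ⟨h1, h2⟩ := hinj fun x => ((hG t x).symm.trans (by rw [show G t = G t' from he])).trans (hG t' x)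
          rw [div_eq_div_iff (hδt t) (hδt t')] at h1 h2
          have h3 : (2 : K) * 2 * (1 + δ * (t' * t')) * (t - t') = 0 := by
            linear_combination 2 * h2 - 2 * t' * h1
          exact congrArg some (sub_eq_zero.1 ((mul_eq_zero.1 h3).resolve_left
            (mul_ne_zero (mul_ne_zero hS.twoK hS.twoK) (hδt t'))))
      · rintro ⟨g, c, s, hcs, hg⟩
        by_cases hc : c = -1
        · refine ⟨none, Subtype.ext (Subtype.ext (LinearEquiv.ext fun x => ?_))⟩
          subst hc
          have hδ0 : δ ≠ 0 := by rw [hδ]; exact div_ne_zero ht.ff ht.ee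
          have hs : s = 0 := mul_self_eq_zero.1
            ((mul_eq_zero.1 (by linear_combination hcs : δ * (s * s) = 0)).resolve_left hδ0)
          show J.1.1 x = g.1 x
          rw [hJ, hg, hs]
        · refine ⟨some (s / (1 + c)), Subtype.ext (Subtype.ext (LinearEquiv.ext fun x => ?_))⟩
          show (G _).1.1 x = g.1 x
          have hc' : 1 + c ≠ 0 := fun e0 => hc (by linear_combination e0)
          have hd : 1 + δ * (s / (1 + c) * (s / (1 + c))) = 2 / (1 + c) := by
            field_simp
            linear_combination hcs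
          rw [hG, hg, hd]
          congr 1
          · field_simp [hS.twoK]
            linear_combination -hcs
          · field_simp [hS.twoK]
    have hker : Nat.card sq₂.ker = 2 := by
      obtain ⟨g, hlin, hg⟩ := hS.exists_rot ht (c := -1) (s := 0) (by ring)
      have hgR : g ∈ R := ⟨-1, 0, by ring, hg⟩
      have hset : (sq₂.ker : Set R) = {1, ⟨g, hgR⟩} := by
        ext z
        simp only [SetLike.mem_coe, MonoidHom.mem_ker, Set.mem_insert_iff, Set.mem_singleton_iff]
        constructor
        · intro hz
          obtain ⟨c, s, hcs, hz'⟩ := z.2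
          have hz1 : ∀ x, rot h e f c s (rot h e f c s x) = x := fun x => by
            rw [← hz', ← hz', ← mul_val]
            show (sq₂ z).1 x = x
            rw [hz]; rfl
          obtain ⟨h1, h2⟩ := hinj (c := c * c - δ * (s * s)) (s := c * s + s * c) (c' := 1) (s' := 0)
            fun x => by rw [rot_one, hδ, ← hS.rot_rot ht, hz1]
          have hδ0 : δ ≠ 0 := by rw [hδ]; exact div_ne_zero ht.ff ht.ee
          have hs : s = 0 := mul_self_eq_zero.1 ((mul_eq_zero.1
            (show (2 : K) * δ * (s * s) = 0 by linear_combination hcs - h1)).resolve_left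
              (mul_ne_zero hS.twoK hδ0))
          rcases mul_self_eq_one_iff.1 (show c * c = 1 by linear_combination hcs - δ * s * hs) with
            hc | hc
          · exact Or.inl (Subtype.ext (Subtype.ext (LinearEquiv.ext fun x => by
              rw [hz', hc, hs, rot_one]; rfl)))
          · exact Or.inr (Subtype.ext (Subtype.ext (LinearEquiv.ext fun x => by
              rw [hz', hg, hc, hs])))
        · rintro (rfl | rfl)
          · exact map_one _
          · refine Subtype.ext (LinearEquiv.ext fun x => ?_)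
            show g.1 (g.1 x) = x
            rw [hg, hg, hS.rot_rot ht]
            norm_num
            exact rot_one x
      have hne : (1 : R) ≠ ⟨g, hgR⟩ := fun he => by
        obtain ⟨h1, -⟩ := hinj (c := 1) (s := 0) (c' := -1) (s' := 0) fun x => by
          rw [rot_one, ← hg]
          exact congrArg (fun z : R => z.1.1 x) he
        exact hS.twoK (by linear_combination h1)
      show Nat.card (sq₂.ker : Set R) = 2
      rw [Nat.card_coe_set_eq, hset, Set.ncard_pair hne]
    have e1 := sq₂.ker.card_mul_index
    rw [Subgroup.index_ker, hker, hRcard] at e1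
    exact e1

/-- The squares of the torus about `a`. -/
theorem exists_torus_group {y a q : V} (hf : Frame h y a q) :
    ∃ C : Subgroup (OQ Q), C ≤ M ∧ (∀ c ∈ C, c ≠ 1 → ∀ x, c.1 x = x ↔ x ∈ kline F K a) ∧
      2 * Nat.card C + 1 = Nat.card K := by
  classical
  haveI := hS.finiteOQ
  haveI := Fintype.ofFinite K
  have hex : ∀ τ : Kˣ, ∃ g : OQ Q, (∀ (c : K) x, g.1 (c • x) = c • g.1 x) ∧
      ∀ x, g.1 x = x + (((τ : K) - 1) * h q x) • y + (((τ : K)⁻¹ - 1) * h y x) • q := fun τ => by
    obtain ⟨g, h1, -, h3⟩ := hS.exists_torus hf τ.ne_zero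
    exact ⟨g, h1, h3⟩
  choose T hTlin hT using hex
  have hT2 : ∀ (σ τ : Kˣ) x, (T σ).1 ((T τ).1 x) = (T (σ * τ)).1 x := by
    intro σ τ x
    simp only [hT, map_add, map_smul, smul_eq_mul, hf.yy, hf.qq, hf.yq, hf.qy hS, Units.val_mul,
      mul_zero, mul_one, add_zero]
    match_scalars <;> (field_simp; try ring)
  let Φ : Kˣ →* OQ Q :=
    { toFun := fun τ => T τ * T τ
      map_one' := Subtype.ext (LinearEquiv.ext fun x => by
        rw [mul_val, hT2, one_mul, hT, Units.val_one, inv_one]
        simp)
      map_mul' := fun σ τ => Subtype.ext (LinearEquiv.ext fun x => by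
        simp only [mul_val, hT2, mul_comm, mul_left_comm, mul_assoc]) }
  have hΦ : ∀ τ x, (Φ τ).1 x = x + ((((τ * τ : Kˣ) : K) - 1) * h q x) • y +
      ((((τ * τ : Kˣ) : K)⁻¹ - 1) * h y x) • q := fun τ x => by
    show (T τ * T τ).1 x = _
    rw [mul_val, hT2, hT]
  refine ⟨Φ.range, ?_, ?_, ?_⟩
  · rintro _ ⟨τ, rfl⟩
    exact hS.lin (T τ) (hTlin τ)
  · rintro _ ⟨τ, rfl⟩ hne x
    have hτ : ((τ * τ : Kˣ) : K) ≠ 1 := fun e => hne (Subtype.ext (LinearEquiv.ext fun z => by
      rw [hΦ, e, inv_one]
      simp))
    constructor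
    · intro hx
      rw [hΦ] at hx
      have h1 : h q x = 0 := by
        have e1 := congrArg (h q) hx
        simp only [map_add, map_smul, smul_eq_mul, hf.qy hS, hf.qq, mul_zero, add_zero, mul_one]
          at e1
        exact (mul_eq_zero.1 (show _ * h q x = 0 by linear_combination e1)).resolve_left
          (sub_ne_zero.2 hτ)
      have h3 : h y x = 0 := by
        have e1 := congrArg (h y) hx
        simp only [map_add, map_smul, smul_eq_mul, hf.yy, hf.yq, mul_zero, add_zero, mul_one] at e1
        exact (mul_eq_zero.1 (show _ * h y x = 0 by linear_combination e1)).resolve_left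
          (sub_ne_zero.2 fun e => hτ (inv_eq_one.1 e))
      refine mem_kline.2 ⟨h a x / h a a, ?_⟩
      conv_rhs => rw [hf.expand_vec hS x, h1, h3, zero_smul, zero_smul, zero_add, add_zero]
    · intro hx
      obtain ⟨k, rfl⟩ := mem_kline.1 hx
      simp [hΦ, hf.qb, hf.yb]
  · have hker : Nat.card Φ.ker = 2 := by
      have hset : (Φ.ker : Set Kˣ) = {1, -1} := by
        ext τ
        simp only [SetLike.mem_coe, MonoidHom.mem_ker, Set.mem_insert_iff, Set.mem_singleton_iff]
        constructor
        · intro hτ
          have e : (Φ τ).1 y = y := by rw [hτ]; rfl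
          rw [hΦ, hf.qy hS, hf.yy] at e
          have e' := congrArg (h q) e
          simp [hf.qy hS, sub_eq_zero] at e'
          rcases mul_self_eq_one_iff.1 e' with e1 | e1
          · exact Or.inl (Units.ext e1)
          · exact Or.inr (Units.ext e1)
        · rintro (rfl | rfl) <;>
            exact Subtype.ext (LinearEquiv.ext fun x => by simp [hΦ])
      have hne : (1 : Kˣ) ≠ -1 := fun he => by
        have := congrArg (fun z : Kˣ => (z : K)) he
        have he1 : (1 : K) = -1 := by simpa using this
        exact hS.twoK (by linear_combination he1)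
      show Nat.card (Φ.ker : Set Kˣ) = 2
      rw [Nat.card_coe_set_eq, hset, Set.ncard_pair hne]
    have e1 := Φ.ker.card_mul_index
    rw [Subgroup.index_ker, hker, Nat.card_units] at e1
    have := Nat.card_pos (α := K)
    omega

/-- A half turn in `M` negating `v`. -/
theorem exists_turn {v e f : V} (ht : Tri h v e f) : ∃ j ∈ M, j.1 v = -v := by
  classical
  haveI := Fintype.ofFinite K
  obtain ⟨x, z, hxz⟩ : ∃ x z : K, x * x * h e e + z * z * h f f = h v v := by
    have hdeg : ∀ a c : K, a ≠ 0 → (Polynomial.C a * Polynomial.X ^ 2 - Polynomial.C c).degree = 2 := by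
      intro a c ha
      rw [Polynomial.degree_sub_eq_left_of_degree_lt] <;> rw [Polynomial.degree_C_mul_X_pow 2 ha]
      · rfl
      · exact Polynomial.degree_C_le.trans_lt (by decide)
    obtain ⟨x, z, hxz⟩ := FiniteField.exists_root_sum_quadratic (hdeg _ (h v v) ht.ee) (hdeg _ 0 ht.ff)
      (by
        rw [← Nat.card_eq_fintype_card]
        have := FiniteField.odd_card_of_char_ne_two (F := K) fun e2 => hS.twoK (by
          haveI : CharP K 2 := ringChar.of_eq e2
          exact CharTwo.two_eq_zero)
        rwa [Nat.card_eq_fintype_card])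
    simp at hxz
    exact ⟨x, z, by linear_combination hxz⟩
  have hev : h e v = 0 := by rw [hS.symm, ht.ae]
  have hfv : h f v = 0 := by rw [hS.symm, ht.af]
  have hfe : h f e = 0 := by rw [hS.symm, ht.ef]
  obtain ⟨w', hw'⟩ : ∃ w', w' = x • e + z • f := ⟨_, rfl⟩
  obtain ⟨a, ha⟩ : ∃ a, a = (z * h f f) • e - (x * h e e) • f := ⟨_, rfl⟩
  have hww : h w' w' = h v v := by
    simp [hw', ht.ef, hfe]
    linear_combination hxz
  have haa : h a a = h e e * h f f * h v v := by
    simp [ha, ht.ef, hfe]
    linear_combination (h e e * h f f) * hxz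
  have ht' : Tri h a v w' := ⟨by rw [haa]; exact mul_ne_zero (mul_ne_zero ht.ee ht.ff) ht.aa,
    ht.aa, by rw [hww]; exact ht.aa, by simp [ha, hev, hfv],
    by simp [ha, hw', ht.ef, hfe]; ring, by simp [hw', ht.ae, ht.af]⟩
  obtain ⟨g, hlin, hg⟩ := hS.exists_rot ht' (c := 0) (s := 1)
    (by rw [hww, div_self ht.aa]; ring)
  refine ⟨g * g, hS.lin g hlin, ?_⟩
  rw [mul_val, hg, hg, hS.rot_rot ht', hww, div_self ht.aa]
  simp [rot, ht.aa, ht'.ef, hS.symm w' v]
  module

end Setup

end Cfsg.Agent.MaxSub.OrthExt3
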