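import Cfsg.Agent.MaxSub.OrthExt3.Basic

/-!
The skew maps at a singular line whose transformations lie in the overgroup, and the commutator
of two maps translating modulo the line.
-/

set_option autoImplicit false
set_option linter.style.haveILetI false
set_option linter.unusedSectionVars false

namespace Cfsg.Agent.MaxSub.OrthExt3

open QuadraticMap Module Cfsg.Agent.Classical Cfsg.Agent.MaxSub.ExtField

universe u v w

variable {F : Type u} {K : Type w} {V : Type v} [Field F] [Field K] [Algebra F K] [AddCommGroup V]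
  [Module F V] [Module K V] [IsScalarTower F K V] [FiniteDimensional F K] [FiniteDimensional F V]
  [FiniteDimensional K V] [Finite F] [Finite K]
  {Q : QuadraticForm F V} {h : LinearMap.BilinForm K V} {M : Subgroup (OQ Q)}

/-- The maps `B` all whose multiples give elements `v ↦ v + B (h y v) y` of `M`. -/
noncomputable def space (h : LinearMap.BilinForm K V) (M : Subgroup (OQ Q)) (y : V) :
    Submodule F (K →ₗ[F] K) where
  carrier := {B | h y y = 0 → ∀ t : F, ∃ g ∈ M, ∀ v, g.1 v = v + (t • B) (h y v) • y}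
  add_mem' := by
    intro B C hB hC hy t
    obtain ⟨g, hg, hgv⟩ := hB hy t
    obtain ⟨k, hk, hkv⟩ := hC hy t
    refine ⟨g * k, mul_mem hg hk, fun v => ?_⟩
    rw [mul_val, hkv, hgv, map_add, map_smul, hy, smul_zero, add_zero, smul_add,
      LinearMap.add_apply, add_smul]
    abel
  zero_mem' := fun _ t => ⟨1, one_mem M, fun v => by simp⟩
  smul_mem' := by
    intro c B hB hy t
    obtain ⟨g, hg, hgv⟩ := hB hy (t * c)
    exact ⟨g, hg, fun v => by rw [hgv, smul_smul]⟩

lemma mem_space {y : V} (hy : h y y = 0) {B : K →ₗ[F] K} :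
    B ∈ space h M y ↔ ∀ t : F, ∃ g ∈ M, ∀ v, g.1 v = v + (t • B) (h y v) • y :=
  ⟨fun hB => hB hy, fun hB _ => hB⟩

namespace Setup

variable (hS : Setup Q h M)
include hS

lemma skew_of_mem {y : V} (hy0 : y ≠ 0) (hy : h y y = 0) {B : K →ₗ[F] K}
    (hB : B ∈ space h M y) : Skew B := by
  intro c
  obtain ⟨q, hqq, hyq⟩ := hS.exists_partner hy0 hy
  obtain ⟨g, -, hg⟩ := (mem_space hy).1 hB 1
  have e := OQ_polar g (c • q) (c • q)
  rw [hg, one_smul, map_smul, hyq, smul_eq_mul, mul_one, polar_add_left, polar_add_right,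
    polar_add_right, hS.polar_smul' (B c) (c • q) y, hS.polar_smul (B c) y (c • q),
    hS.polar_smul (B c) y (B c • y), hS.symm (c • q) y] at e
  simp only [map_smul, hyq, hy, smul_eq_mul, mul_one, mul_zero, map_zero, add_zero] at e
  rw [mul_comm c]
  exact (mul_eq_zero.1 (show (2 : F) * Algebra.trace F K (B c * c) = 0 by
    linear_combination e)).resolve_left hS.two

/-- Transport along a `K`-linear isometry in `M`. -/
lemma space_transport {y y' : V} (hy : h y y = 0) (hy' : h y' y' = 0) {E : OQ Q} (hE : E ∈ M)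
    (hlin : ∀ (c : K) x, E.1 (c • x) = c • E.1 x) (hiso : ∀ u v, h (E.1 u) (E.1 v) = h u v)
    {κ : K} (hEy : E.1 y = κ • y') {B : K →ₗ[F] K} (hB : B ∈ space h M y) :
    scaled κ B ∈ space h M y' := by
  rw [mem_space hy']
  intro t
  obtain ⟨g, hg, hgv⟩ := (mem_space hy).1 hB t
  refine ⟨E * g * E⁻¹, mul_mem (mul_mem hE hg) (inv_mem hE), fun v => ?_⟩
  have e : h y (E.1.symm v) = κ * h y' v := by
    rw [← hiso, hEy, LinearEquiv.apply_symm_apply, map_smul, LinearMap.smul_apply, smul_eq_mul]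
  rw [mul_val, mul_val, inv_val, hgv, map_add, LinearEquiv.apply_symm_apply, hlin, hEy, e,
    smul_smul, LinearMap.smul_apply, LinearMap.smul_apply, scaled_apply, smul_mul_assoc,
    mul_comm κ (B _)]

lemma space_ne_bot_all {y₀ : V} (hy₀0 : y₀ ≠ 0) (hy₀ : h y₀ y₀ = 0)
    (hne : space h M y₀ ≠ ⊥) {y : V} (hy0 : y ≠ 0) (hy : h y y = 0) : space h M y ≠ ⊥ := by
  obtain ⟨B, hB, hB0⟩ := (Submodule.ne_bot_iff _).1 hne
  obtain ⟨E, hEM, κ, hκ, hlin, hiso, hEy⟩ := hS.exists_move hy₀0 hy₀ hy0 hy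
  refine (Submodule.ne_bot_iff _).2 ⟨_, hS.space_transport hy₀ hy hEM hlin hiso hEy hB, fun e =>
    hB0 (LinearMap.ext fun c => ?_)⟩
  have := LinearMap.congr_fun e (c / κ)
  rw [scaled_apply, mul_div_cancel₀ _ hκ, LinearMap.zero_apply] at this
  exact (mul_eq_zero.1 this).resolve_left hκ

lemma exists_torus {y b q : V} (hf : Frame h y b q) {τ : K} (hτ : τ ≠ 0) :
    ∃ g : OQ Q, (∀ (c : K) x, g.1 (c • x) = c • g.1 x) ∧ (∀ u v, h (g.1 u) (g.1 v) = h u v) ∧
      ∀ x, g.1 x = x + ((τ - 1) * h q x) • y + ((τ⁻¹ - 1) * h y x) • q := by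
  let s : K → V →ₗ[K] V := fun τ =>
    LinearMap.id + (τ - 1) • (h q).smulRight y + (τ⁻¹ - 1) • (h y).smulRight q
  have hsa : ∀ τ x, s τ x = x + ((τ - 1) * h q x) • y + ((τ⁻¹ - 1) * h y x) • q := fun τ x => by
    simp [s, smul_smul]
  have hinv : ∀ σ : K, σ ≠ 0 → ∀ x, s σ (s σ⁻¹ x) = x := by
    intro σ hσ x
    simp only [hsa, map_add, map_smul, smul_eq_mul, hf.yy, hf.qq, hf.yq, hf.qy hS, mul_zero,
      mul_one, add_zero, inv_inv]
    match_scalars <;> (field_simp; try ring)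
  have hiso : ∀ u v, h (s τ u) (s τ v) = h u v := by
    intro u v
    simp only [hsa, map_add, map_smul, LinearMap.add_apply, LinearMap.smul_apply, smul_eq_mul,
      hf.yy, hf.qq, hf.yq, hf.qy hS, hS.symm u y, hS.symm u q]
    field_simp
    ring
  let f : V ≃ₗ[K] V := LinearEquiv.ofLinearMap (s τ) (s τ⁻¹)
    (LinearMap.ext (hinv τ hτ))
    (LinearMap.ext fun x => by
      have := hinv τ⁻¹ (inv_ne_zero hτ) x
      rwa [inv_inv] at this)
  obtain ⟨g, hg⟩ := hS.exists_iso (f := f) hiso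
  refine ⟨g, fun c x => by rw [hg, hg]; exact map_smul f c x,
    fun u v => by rw [hg, hg]; exact hiso u v, fun x => (hg x).trans (hsa τ x)⟩

/-- The space at a line is stable under scalings by squares, hence by everything. -/
lemma scaled_mem {y : V} (hy0 : y ≠ 0) (hy : h y y = 0) {B : K →ₗ[F] K}
    (hB : B ∈ space h M y) (l : K) : scaled l B ∈ space h M y := by
  obtain ⟨b, q, hf⟩ := hS.exists_frame hy0 hy
  have hsq : ∀ τ : K, τ ≠ 0 → ∀ C ∈ space h M y, scaled (τ * τ) C ∈ space h M y := by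
    intro τ hτ C hC
    obtain ⟨g, hlin, hiso, hg⟩ := hS.exists_torus hf hτ
    refine hS.space_transport hy hy (hS.lin g hlin) (fun c x => by rw [mul_val, mul_val, hlin, hlin])
      (fun u v => by rw [mul_val, mul_val, hiso, hiso]) ?_ hC
    have e : g.1 y = τ • y := by rw [hg, hf.qy hS, hf.yy]; module
    rw [mul_val, e, hlin, e, smul_smul]
  haveI := Fintype.ofFinite F
  haveI := Fintype.ofFinite K
  by_cases hl : l = 0
  · subst hl
    convert (space h M y).zero_mem
    ext c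
    simp [scaled_apply]
  by_cases hs : IsSquare l
  · obtain ⟨τ, rfl⟩ := hs
    exact hsq τ (fun e => hl (by rw [e, mul_zero])) B hB
  -- a non-square of the ground field stays one in odd degree
  obtain ⟨ε, hε⟩ := FiniteField.exists_nonsquare (F := F) fun e => hS.two (by
    haveI : CharP F 2 := ringChar.of_eq e
    exact CharTwo.two_eq_zero)
  have hε0 : ε ≠ 0 := fun e => hε (e ▸ IsSquare.zero)
  have hεK : ¬ IsSquare (algebraMap F K ε) := by
    rintro ⟨s, hs⟩
    apply hε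
    refine ⟨Algebra.norm F s / ε ^ (finrank F K / 2), ?_⟩
    have e := congrArg (Algebra.norm F) hs
    rw [Algebra.norm_algebraMap, map_mul] at e
    have hodd : finrank F K = 2 * (finrank F K / 2) + 1 := by
      have := Nat.odd_iff.1 (hS.prime.odd_of_ne_two (by have := hS.five; omega))
      omega
    field_simp
    rw [_root_.sq (Algebra.norm F s), ← e]
    conv_rhs => rw [hodd]
    ring
  obtain ⟨τ, hτ⟩ : IsSquare (l / algebraMap F K ε) := by
    rw [div_eq_mul_inv]
    have hinv : ¬ IsSquare (algebraMap F K ε)⁻¹ := fun hi => hεK (by simpa using hi.inv)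
    exact Forms.isSquare_mul_of_not_isSquare hs hinv
  have hl' : l = algebraMap F K ε * (τ * τ) := by
    rw [← hτ, mul_div_cancel₀ _ (by simpa using hε0)]
  have e : scaled l B = (ε * ε) • scaled (τ * τ) B := by
    refine LinearMap.ext fun c => ?_
    rw [hl', LinearMap.smul_apply, scaled_apply, scaled_apply, mul_assoc (algebraMap F K ε),
      mul_assoc (algebraMap F K ε) (τ * τ) c, ← Algebra.smul_def, ← Algebra.smul_def, map_smul,
      mul_smul_comm, smul_smul]
  rw [e]
  exact (space h M y).smul_mem _ (hsq τ (fun e0 => hl (by rw [hl', e0]; simp)) B hB)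

/-- An element determined by its form lies on the line. -/
lemma eq_of_form {y : V} {k : OQ Q} {B : K →ₗ[F] K}
    (hk : ∀ v v', polar Q (k.1 v - v) v' = Algebra.trace F K (h y v' * B (h y v))) (v : V) :
    k.1 v = v + B (h y v) • y := by
  rw [← sub_eq_zero]
  refine hS.bnondeg _ fun v' => ?_
  rw [← sub_sub, polar_sub_left, hk, hS.polar_smul, mul_comm, sub_self]

/-- Commutators of two maps translating modulo the line. -/
lemma commutator_form {y : V} (hy : h y y = 0) {k k' : OQ Q} {φ φ' : K → V}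
    (hφ : ∀ c, h y (φ c) = 0) (hφ' : ∀ c, h y (φ' c) = 0) (h0 : φ 0 = 0) (h0' : φ' 0 = 0)
    (hk : ∀ v, k.1 v - v - φ (h y v) ∈ kline F K y)
    (hk' : ∀ v, k'.1 v - v - φ' (h y v) ∈ kline F K y) (v v' : V) :
    polar Q ((k * k' * k⁻¹ * k'⁻¹).1 v - v) v' =
      polar Q (φ (h y v)) (φ' (h y v')) - polar Q (φ' (h y v)) (φ (h y v')) := by
  have hL : ∀ {l u : V}, l ∈ kline F K y → h y u = 0 → polar Q l u = 0 := by
    intro l u hl hu
    obtain ⟨t, rfl⟩ := mem_kline.1 hl
    rw [hS.polar_smul, hu, mul_zero, map_zero]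
  have hLy : ∀ {l : V}, l ∈ kline F K y → h y l = 0 := fun hl => pair_kline hy hl
  have hmove : ∀ (j : OQ Q) (ψ : K → V), (∀ c, h y (ψ c) = 0) →
      (∀ v, j.1 v - v - ψ (h y v) ∈ kline F K y) → ∀ v, h y (j.1 v) = h y v := by
    intro j ψ hψ hj v
    have := hLy (hj v)
    rwa [map_sub, map_sub, hψ, sub_zero, sub_eq_zero] at this
  have hlam : ∀ (j : OQ Q) (ψ : K → V), (∀ c, h y (ψ c) = 0) → ψ 0 = 0 →
      (∀ v, j.1 v - v - ψ (h y v) ∈ kline F K y) → ∀ u v', h y u = 0 →
        polar Q (j.1 u - u) v' = - polar Q u (ψ (h y v')) := by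
    intro j ψ hψ hψ0 hj u v' hu
    have h1 := hj u
    rw [hu, hψ0, sub_zero] at h1
    obtain ⟨l, hl, hul⟩ : ∃ l ∈ kline F K y, j.1 u = u + l :=
      ⟨_, h1, (add_sub_cancel _ _).symm⟩
    obtain ⟨l', hl', hvl⟩ : ∃ l' ∈ kline F K y, j.1 v' = v' + ψ (h y v') + l' :=
      ⟨_, hj v', by abel⟩
    have h2 := OQ_polar j u v'
    rw [hul, hvl, polar_add_left, polar_add_right, polar_add_right, polar_add_right,
      polar_add_right, hL hl (hψ _), hL hl (hLy hl'), polar_comm Q u l', hL hl' hu] at h2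
    rw [hul, add_sub_cancel_left]
    linear_combination h2
  obtain ⟨v₀, rfl⟩ : ∃ v₀, (k' * k).1 v₀ = v :=
    ⟨(k' * k).1.symm v, LinearEquiv.apply_symm_apply _ v⟩
  have e : (k * k' * k⁻¹ * k'⁻¹).1 ((k' * k).1 v₀) = k.1 (k'.1 v₀) := by
    show k.1 (k'.1 (k.1.symm (k'.1.symm (k'.1 (k.1 v₀))))) = _
    simp
  have hc : h y ((k' * k).1 v₀) = h y v₀ := by
    rw [mul_val, hmove k' φ' hφ' hk', hmove k φ hφ hk]
  rw [e, hc]
  show polar Q (k.1 (k'.1 v₀) - k'.1 (k.1 v₀)) v' = _
  obtain ⟨η, hη⟩ : ∃ η, η = k.1 v₀ - v₀ := ⟨_, rfl⟩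
  obtain ⟨η', hη'⟩ : ∃ η', η' = k'.1 v₀ - v₀ := ⟨_, rfl⟩
  have hηy : h y η = 0 := by rw [hη, map_sub, hmove k φ hφ hk, sub_self]
  have hηy' : h y η' = 0 := by rw [hη', map_sub, hmove k' φ' hφ' hk', sub_self]
  have hkv : k.1 v₀ = v₀ + η := by rw [hη]; abel
  have hkv' : k'.1 v₀ = v₀ + η' := by rw [hη']; abel
  have e2 : k.1 (k'.1 v₀) - k'.1 (k.1 v₀) = (k.1 η' - η') - (k'.1 η - η) := by
    rw [hkv', hkv, map_add, map_add, hkv, hkv']
    abel
  rw [e2, polar_sub_left, hlam k φ hφ h0 hk _ _ hηy', hlam k' φ' hφ' h0' hk' _ _ hηy]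
  have h3 : polar Q η (φ' (h y v')) = polar Q (φ (h y v₀)) (φ' (h y v')) := by
    have := hL (hk v₀) (hφ' (h y v'))
    rw [← hη, polar_sub_left, sub_eq_zero] at this
    exact this
  have h4 : polar Q η' (φ (h y v')) = polar Q (φ' (h y v₀)) (φ (h y v')) := by
    have := hL (hk' v₀) (hφ (h y v'))
    rw [← hη', polar_sub_left, sub_eq_zero] at this
    exact this
  rw [h3, h4]
  ring

lemma polar_bline (b : V) (u v : K) :
    polar Q (u • b) (v • b) = Algebra.trace F K (h b b * u * v) := by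
  rw [hS.polar_smul, map_smul, smul_eq_mul]
  ring_nf

end Setup

end Cfsg.Agent.MaxSub.OrthExt3
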