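import Cfsg.Agent.MaxSub.OrthExt3.Moves

/-!
All Siegel transformations on singular lines, and with them the commutator subgroup, lie in the
overgroup.
-/

set_option autoImplicit false
set_option linter.style.haveILetI false
set_option linter.unusedSectionVars false

namespace Cfsg.Agent.MaxSub.OrthExt3

open QuadraticMap Module Cfsg.Agent.Classical Cfsg.Agent.MaxSub.ExtField
open Cfsg.Agent.MaxSub.OrthOverfield (rootSpace mem_rootSpace_symm map_rootSpace)

universe u v w

variable {F : Type u} {K : Type w} {V : Type v} [Field F] [Field K] [Algebra F K] [AddCommGroup V]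
  [Module F V] [Module K V] [IsScalarTower F K V] [FiniteDimensional F K] [FiniteDimensional F V]
  [FiniteDimensional K V] [Finite F] [Finite K]
  {Q : QuadraticForm F V} {h : LinearMap.BilinForm K V} {M : Subgroup (OQ Q)}

/-- The Siegel transformations at `p` with vector in `F v` lie in `M`. -/
def InRoot (M : Subgroup (OQ Q)) (p v : V) : Prop := ∃ hp : Q p = 0, v ∈ rootSpace M hp

lemma InRoot.symm {p v : V} (hv : Q v = 0) (hr : InRoot M p v) : InRoot M v p :=
  ⟨hv, mem_rootSpace_symm hr.1 hv hr.2⟩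

lemma InRoot.map {p v : V} (hr : InRoot M p v) {g : OQ Q} (hg : g ∈ M) :
    InRoot M (g.1 p) (g.1 v) :=
  ⟨by rw [g.2, hr.1], map_rootSpace hr.1 _ hg rfl hr.2⟩

lemma InRoot.add {p v v' : V} (hr : InRoot M p v) (hr' : InRoot M p v') : InRoot M p (v + v') :=
  ⟨hr.1, Submodule.add_mem _ hr.2 hr'.2⟩

lemma InRoot.sub {p v v' : V} (hr : InRoot M p v) (hr' : InRoot M p v') : InRoot M p (v - v') :=
  ⟨hr.1, Submodule.sub_mem _ hr.2 hr'.2⟩

/-- All Siegel transformations on the line of `y` lie in `M`. -/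
def LineFull (K : Type w) [Field K] [Module K V] (M : Subgroup (OQ Q)) (y : V) : Prop :=
  ∀ a b : K, InRoot M (a • y) (b • y)

lemma InRoot.mem {p v : V} (hr : InRoot M p v) (hp : Q p = 0) (hv : polar Q p v = 0) :
    siegel Q hp hv ∈ M := by
  obtain ⟨hp', -, hm⟩ := hr
  have h1 : polar Q p ((1 : F) • v) = 0 := by rw [one_smul]; exact hv
  have := hm 1 h1
  rwa [siegel_congr Q hp' h1 hp hv rfl (one_smul F v)] at this

namespace Setup

variable (hS : Setup Q h M)
include hS

lemma polar_line {y : V} (hy : h y y = 0) (a b : K) : polar Q (a • y) (b • y) = 0 := by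
  rw [hS.tr]
  simp [hy]

/-- The space at some line contains all maps of rank two. -/
lemma exists_all_sk {g : OQ Q} (hg : g ∈ M)
    (hnot : ¬ ∀ c : K, ∃ c' : K, ∀ x, g.1 (c • x) = c' • g.1 x) :
    ∃ y, y ≠ 0 ∧ h y y = 0 ∧ ∀ a b : K, sk a b ∈ space h M y := by
  obtain ⟨y, hy0, hy, a, haM, N, hN0, hNN, haN⟩ := hS.exists_transvection hg hnot
  refine ⟨y, hy0, hy, ?_⟩
  obtain ⟨A, hA, hA0⟩ := (Submodule.ne_bot_iff _).1 (hS.space_ne_bot hg hnot hy0 hy)
  have key : ∀ (c : OQ Q) (T : K →ₗ[F] K), c ∈ M → (∀ t, c.1 (t • y) = T t • y) →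
      ∀ B ∈ space h M y, T ∘ₗ B ∘ₗ adj T ∈ space h M y := by
    intro c T hc hcT B hB
    rw [mem_space hy]
    intro t
    obtain ⟨e, heM, he⟩ := (mem_space hy).1 hB t
    refine ⟨c * e * c⁻¹, mul_mem (mul_mem hc heM) (inv_mem hc), fun v => ?_⟩
    have e1 : h y (c.1.symm v) = adj T (h y v) := by
      refine ext_trace (F := F) fun s => ?_
      rw [← trace_adj, ← hS.polar_smul, ← OQ_polar c, LinearEquiv.apply_symm_apply, hcT,
        hS.polar_smul]
    rw [mul_val, mul_val, inv_val, he, map_add, LinearEquiv.apply_symm_apply, hcT, e1,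
      LinearMap.smul_apply, map_smul, LinearMap.smul_apply, LinearMap.comp_apply,
      LinearMap.comp_apply]
  have hinv : ∀ t, (a⁻¹).1 (t • y) = (t - N t) • y := fun t => by
    rw [inv_val, LinearEquiv.symm_apply_eq, haN, map_sub, hNN, sub_zero, sub_add_cancel]
  exact sk_mem_of_invariant rfl hS.prime hS.two (fun B hB => hS.skew_of_mem hy0 hy hB)
    (fun B hB l => hS.scaled_mem hy0 hy hB l) hA hA0 hN0 hNN
    (key a _ haM fun t => by rw [haN]; rfl) (key a⁻¹ _ (inv_mem haM) fun t => by rw [hinv]; rfl)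

/-- All lines are full. -/
lemma lineFull_all {g : OQ Q} (hg : g ∈ M)
    (hnot : ¬ ∀ c : K, ∃ c' : K, ∀ x, g.1 (c • x) = c' • g.1 x) {y : V} (hy0 : y ≠ 0)
    (hy : h y y = 0) : LineFull K M y := by
  obtain ⟨y₀, hy₀0, hy₀, hall⟩ := hS.exists_all_sk hg hnot
  obtain ⟨E, hEM, κ, hκ, hlin, hiso, hEy⟩ := hS.exists_move hy₀0 hy₀ hy0 hy
  intro a b
  have hmem : sk a b ∈ space h M y := by
    convert hS.space_transport hy₀ hy hEM hlin hiso hEy (hall (a / κ) (b / κ)) using 1
    refine LinearMap.ext fun c => ?_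
    simp only [scaled_apply, sk_apply, mul_sub, mul_smul_comm, mul_div_cancel₀ _ hκ]
    rw [← mul_assoc (a / κ), div_mul_cancel₀ _ hκ, ← mul_assoc (b / κ), div_mul_cancel₀ _ hκ]
  refine ⟨hS.sing_Q (sing_smul hy a), hS.polar_line hy a b, fun t ht => ?_⟩
  obtain ⟨m, hm, hmv⟩ := (mem_space hy).1 hmem t
  convert hm using 1
  refine Subtype.ext (LinearEquiv.ext fun v => ?_)
  have hp' : polar Q (a • y) ((t • b) • y) = 0 := hS.polar_line hy _ _
  rw [siegel_congr Q _ _ (hS.sing_Q (sing_smul hy a)) hp' rfl (smul_assoc t b y).symm,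
    siegel_apply, hS.sing_Q (sing_smul hy (t • b)), zero_mul, zero_smul, sub_zero,
    hS.polar_smul, hS.polar_smul, hmv]
  simp only [LinearMap.smul_apply, sk_apply, smul_mul_assoc, map_smul, smul_sub, sub_smul,
    smul_assoc, smul_eq_mul, mul_smul, smul_comm t (Algebra.trace F K (a * h y v))]
  abel

/-- Root spaces of singular vectors spread to non-orthogonal ones. -/
lemma inRoot_of_pairing {r : ℕ} (hr : finrank F K = r) (hp : r.Prime) (h3 : 3 ≤ r)
    (hall : ∀ {y : V}, y ≠ 0 → h y y = 0 → LineFull K M y)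
    {b e : V} (hb : h b b = 0) (he : h e e = 0) (hne : h b e ≠ 0) (hf : polar Q b e = 0) :
    InRoot M b e := by
  classical
  obtain ⟨l, hl⟩ : ∃ l, l = h b e := ⟨_, rfl⟩
  have htl : Algebra.trace F K l = 0 := by rw [hl, ← hS.tr, hf]
  let φ : K →ₗ[F] F := (Algebra.traceForm F K).flip l
  have hφa : ∀ t, φ t = Algebra.trace F K (t * l) := fun t => rfl
  obtain ⟨α, γ, hα, hγ, hαγ⟩ : ∃ α γ, φ α = 0 ∧ φ γ = 0 ∧ φ (α * γ) ≠ 0 := by
    by_contra hcon
    push Not at hcon
    let S : Subalgebra F K :=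
      { carrier := {t | φ t = 0}
        mul_mem' := fun {s t} hs ht => hcon s t hs ht
        one_mem' := by show φ 1 = 0; rw [hφa, one_mul, htl]
        add_mem' := fun {s t} hs ht => by
          show φ (s + t) = 0
          rw [map_add, hs, ht, add_zero]
        zero_mem' := map_zero φ
        algebraMap_mem' := fun f => by
          show φ (algebraMap F K f) = 0
          rw [Algebra.algebraMap_eq_smul_one, map_smul, hφa, one_mul, htl, smul_zero] }
    haveI := Subalgebra.isSimpleOrder_of_finrank_prime F K (hr ▸ hp)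
    rcases eq_bot_or_eq_top S with hbot | htop
    · have hle : LinearMap.ker φ ≤ Submodule.span F {(1 : K)} := fun t ht => by
        have ht' : t ∈ S := ht
        rw [hbot, Algebra.mem_bot] at ht'
        obtain ⟨f, rfl⟩ := ht'
        rw [Algebra.algebraMap_eq_smul_one]
        exact Submodule.smul_mem _ _ (Submodule.mem_span_singleton_self _)
      have e1 := Submodule.finrank_mono hle
      rw [finrank_span_singleton one_ne_zero] at e1
      have e2 := LinearMap.finrank_range_add_finrank_ker φ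
      have e3 := (Submodule.finrank_le (LinearMap.range φ)).trans_eq (Module.finrank_self F)
      omega
    · have hl0 : l ≠ 0 := by rw [hl]; exact hne
      exact hl0 ((traceForm_nondegenerate F K).2 l fun t => (htop ▸ Algebra.mem_top : t ∈ S))
  obtain ⟨γ', hγ'⟩ : ∃ γ', γ' = (φ (α * γ))⁻¹ • γ := ⟨_, rfl⟩
  have hγ'0 : φ γ' = 0 := by rw [hγ', map_smul, hγ, smul_zero]
  have hαγ' : φ (α * γ') = 1 := by
    rw [hγ', mul_smul_comm, map_smul, smul_eq_mul, inv_mul_cancel₀ hαγ]
  have hb0 : b ≠ 0 := fun h0 => hne (by simp [h0])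
  have he0 : e ≠ 0 := fun h0 => hne (by simp [h0])
  have hQa : Q (α • b) = 0 := hS.sing_Q (sing_smul hb α)
  have hab : polar Q (α • b) b = 0 := by
    have := hS.polar_line hb α 1
    rwa [one_smul] at this
  have hroot1 : InRoot M (α • b) b := by
    have := hall hb0 hb α 1
    rwa [one_smul] at this
  have hgM : siegel Q hQa hab ∈ M := hroot1.mem hQa hab
  have hgc : (siegel Q hQa hab).1 (γ' • e) = γ' • e + b := by
    rw [siegel_apply, hS.sing_Q hb, zero_mul, zero_smul, sub_zero,
      show polar Q b (γ' • e) = 0 by rw [hS.polar_smul', ← hl, ← hφa, hγ'0], zero_smul, sub_zero,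
      show polar Q (α • b) (γ' • e) = 1 by
        rw [hS.polar_smul, map_smul, ← hl, smul_eq_mul, ← mul_assoc, ← hφa, hαγ'], one_smul]
  have hge : (siegel Q hQa hab).1 e = e := by
    rw [siegel_apply, hS.sing_Q hb, zero_mul, zero_smul, sub_zero, hf, zero_smul, sub_zero,
      show polar Q (α • b) e = 0 by rw [hS.polar_smul, ← hl, ← hφa, hα], zero_smul, add_zero]
  have hroot2 : InRoot M e (γ' • e) := by
    have := hall he0 he 1 γ'
    rwa [one_smul] at this
  have hroot3 := hroot2.map hgM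
  rw [hge, hgc] at hroot3
  have hroot4 := hroot3.sub hroot2
  rw [add_sub_cancel_left] at hroot4
  exact hroot4.symm (hS.sing_Q hb)

/-- A singular vector with the whole orthogonal in its root space: degree at least three. -/
lemma exists_wide_of_three {r : ℕ} (hr : finrank F K = r) (hp : r.Prime) (h3 : 3 ≤ r)
    (hall : ∀ {y : V}, y ≠ 0 → h y y = 0 → LineFull K M y)
    {p : V} (hp0 : p ≠ 0) (hpp : h p p = 0) {v : V} (hv : polar Q p v = 0) : InRoot M p v := by
  classical
  obtain ⟨q, hqq, hpq⟩ := hS.exists_partner hp0 hpp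
  have hqp : h q p = 1 := by rw [hS.symm, hpq]
  obtain ⟨l, hl0, htl⟩ : ∃ l : K, l ≠ 0 ∧ Algebra.trace F K l = 0 := by
    have e2 := LinearMap.finrank_range_add_finrank_ker (Algebra.trace F K)
    have e3 := (Submodule.finrank_le (LinearMap.range (Algebra.trace F K))).trans_eq
      (Module.finrank_self F)
    have hpos : 0 < finrank F (LinearMap.ker (Algebra.trace F K)) := by omega
    have := Module.nontrivial_of_finrank_pos hpos
    obtain ⟨⟨l, hl⟩, hl0⟩ := exists_ne (0 : LinearMap.ker (Algebra.trace F K))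
    exact ⟨l, fun e => hl0 (Subtype.ext e), hl⟩
  have hLine : ∀ s : K, InRoot M p (s • p) := fun s => by
    have := hall hp0 hpp 1 s
    rwa [one_smul] at this
  have hQ : ∀ μ : K, Algebra.trace F K μ = 0 → InRoot M p (μ • q) := by
    intro μ hμ
    by_cases hμ0 : μ = 0
    · simpa [hμ0] using hLine 0
    refine hS.inRoot_of_pairing hr hp h3 hall hpp (sing_smul hqq μ) ?_ ?_
    · simp [hpq, hμ0]
    · rw [hS.polar_smul', hpq, mul_one, hμ]
  have hW : ∀ w, h p w = 0 → h q w = 0 → InRoot M p w := by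
    intro w hpw hqw
    obtain ⟨w', hw'⟩ : ∃ w', w' = l⁻¹ • w := ⟨_, rfl⟩
    have hpw' : h p w' = 0 := by simp [hw', hpw]
    have hqw' : h q w' = 0 := by simp [hw', hqw]
    obtain ⟨c, hc⟩ : ∃ c, c = h w' w' / 2 := ⟨_, rfl⟩
    have hee : h (q + w' - c • p) (q + w' - c • p) = 0 := by
      have h2 := hS.twoK
      simp only [map_add, map_sub, map_smul, LinearMap.add_apply, LinearMap.sub_apply,
        LinearMap.smul_apply, smul_eq_mul, hqq, hpp, hpq, hqp, hS.symm w' p, hS.symm w' q, hpw',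
        hqw', hc]
      field_simp
      ring
    have hpe : h p (q + w' - c • p) = 1 := by simp [hpq, hpw', hpp]
    have h1 := hS.inRoot_of_pairing hr hp h3 hall hpp (sing_smul hee l)
      (by simp [hpe, hl0]) (by rw [hS.polar_smul', hpe, mul_one, htl])
    have h2 := (h1.sub (hQ l htl)).add (hLine (l * c))
    convert h2 using 1
    rw [smul_sub, smul_add, smul_smul, hw', smul_smul, mul_inv_cancel₀ hl0, one_smul]
    abel
  have hμ : Algebra.trace F K (h p v) = 0 := by rw [← hS.tr, hv]
  obtain ⟨w, hwdef⟩ : ∃ w, w = v - h q v • p - h p v • q := ⟨_, rfl⟩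
  have h1 := ((hW w (by simp [hwdef, hpp, hpq]) (by simp [hwdef, hqq, hqp])).add
    (hLine (h q v))).add (hQ _ hμ)
  rw [hwdef, sub_add_eq_add_sub, sub_add_cancel, sub_add_cancel] at h1
  exact h1

/-- An overgroup containing an element which is not semilinear is everything. -/
theorem commutator_le {g : OQ Q} (hg : g ∈ M)
    (hnot : ¬ ∀ c : K, ∃ c' : K, ∀ x, g.1 (c • x) = c' • g.1 x) :
    commutator (OQ Q) ≤ M := by
  have h3 : 3 ≤ finrank F K := by have := hS.five; omega
  have hcentre : ∀ {p : V}, p ≠ 0 → h p p = 0 → p ∈ GeoClasses.siegelCentres Q M := fun hp0 hpp =>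
    ⟨hS.sing_Q hpp, fun a ha => InRoot.mem (hS.exists_wide_of_three rfl hS.prime h3
      (fun h0 hs => hS.lineFull_all hg hnot h0 hs) hp0 hpp ha) _ ha⟩
  obtain ⟨y, -, hy0, hyy⟩ := Forms.exists_singular_vector_of_three_le (qK h)
    (S := (⊤ : Submodule K V)) (by rw [finrank_top, hS.dim])
  rw [qK_apply] at hyy
  obtain ⟨q, hqq, hyq⟩ := hS.exists_partner hy0 hyy
  obtain ⟨c, hc⟩ := (Algebra.trace_surjective F K) 1
  have hfc : polar Q y (c • q) = 1 := by rw [hS.polar_smul', hyq, mul_one, hc]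
  exact GeoClasses.commutator_le_of_centre_pair hS.bnondeg
    (by have := hS.finrank_F; omega)
    (hcentre (p := c • q) (fun e => by simp [e] at hfc) (sing_smul hqq c))
    (hcentre hy0 hyy) (by rw [hfc]; exact one_ne_zero)

end Setup

end Cfsg.Agent.MaxSub.OrthExt3
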