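import Cfsg.Agent.MaxSub.OrthExt3.Pure

/-!
Elements stabilising a singular line when no skew map gives elements of the overgroup: those
fixing the line pointwise are unipotent, and the others have small fixed spaces.
-/

set_option autoImplicit false
set_option linter.style.haveILetI false
set_option linter.unusedSectionVars false

namespace Cfsg.Agent.MaxSub.OrthExt3

open QuadraticMap Module Cfsg.Agent.Classical Cfsg.Agent.MaxSub.ExtField

universe u v w

variable {F : Type u} {K : Type w} {V : Type v} [Field F] [Field K] [Algebra F K] [AddCommGroup V]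
  [Module F V] [Module K V] [IsScalarTower F K V] [FiniteDimensional F K] [FiniteDimensional F V]
  [FiniteDimensional K V] [Finite F] [Finite K]
  {Q : QuadraticForm F V} {h : LinearMap.BilinForm K V} {M : Subgroup (OQ Q)}

/-- No skew map at any singular line gives elements of `M`. -/
def Bare (h : LinearMap.BilinForm K V) (M : Subgroup (OQ Q)) : Prop :=
  ∀ y : V, y ≠ 0 → h y y = 0 → space h M y = ⊥

lemma autEq_one_of_fix (hp : (finrank F K).Prime) {θ : K ≃ₐ[F] K} {x : K} (hx : θ x = x)
    (hxF : ∀ f : F, algebraMap F K f ≠ x) : θ = 1 := by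
  let Fix : Subalgebra F K := AlgHom.equalizer θ.toAlgHom (AlgHom.id F K)
  haveI := Subalgebra.isSimpleOrder_of_finrank_prime F K hp
  have hm : x ∈ Fix := hx
  rcases eq_bot_or_eq_top Fix with e | e
  · rw [e, Algebra.mem_bot] at hm
    obtain ⟨f, hf⟩ := hm
    exact absurd hf (hxF f)
  · exact AlgEquiv.ext fun z => show z ∈ Fix from e ▸ Algebra.mem_top

lemma finrank_semi_le_one (hp : (finrank F K).Prime) {θ : K ≃ₐ[F] K} (hθ : θ ≠ 1) {c : K}
    (S : Submodule F K) (hS : ∀ t ∈ S, θ t = c * t) : finrank F S ≤ 1 := by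
  by_cases h0 : S = ⊥
  · rw [h0, finrank_bot]; exact Nat.zero_le 1
  obtain ⟨t, ht, ht0⟩ := (Submodule.ne_bot_iff S).1 h0
  have hle : S ≤ Submodule.span F {t} := fun s hs => by
    have hfix : θ (s / t) = s / t := by
      rw [map_div₀, hS s hs, hS t ht]
      have hc : c ≠ 0 := fun e => ht0 (θ.injective (by rw [hS t ht, e, zero_mul, map_zero]))
      field_simp
    by_contra hn
    refine hθ (autEq_one_of_fix hp hfix fun f hf => hn ?_)
    exact Submodule.mem_span_singleton.2
      ⟨f, by rw [Algebra.smul_def, hf, div_mul_cancel₀ _ ht0]⟩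
  exact (Submodule.finrank_mono hle).trans (finrank_span_singleton ht0).le

namespace Setup

variable (hS : Setup Q h M)
include hS

lemma mem_commutator_of_odd {g : OQ Q} {n : ℕ} (hn : Odd n) (hg : g ^ n = 1) :
    g ∈ commutator (OQ Q) := by
  haveI := hS.finiteV
  obtain ⟨k, rfl⟩ := hn
  have e : g = g ^ (k + 1) * g ^ (k + 1) := by
    rw [← pow_add, show k + 1 + (k + 1) = (2 * k + 1) + 1 by ring, pow_succ, hg, one_mul]
  rw [e]
  exact Forms.mul_self_mem_commutator hS.bnondeg hS.notExceptional _

lemma exists_odd_char : ∃ p : ℕ, p.Prime ∧ Odd p ∧ CharP F p := by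
  obtain ⟨p, hp⟩ := CharP.exists F
  have hpp : p.Prime := CharP.char_is_prime F p
  refine ⟨p, hpp, hpp.odd_of_ne_two fun e => hS.two ?_, hp⟩
  subst e
  exact CharTwo.two_eq_zero

/-- Translations modulo the line are unipotent. -/
lemma exists_pow_of_translation {y b q : V} (hf : Frame h y b q) {g : OQ Q} {κ : K}
    (hy : ∀ t : K, g.1 (t • y) = t • y)
    (hg : ∀ v, g.1 v - v - (κ * h y v) • b ∈ kline F K y) :
    ∃ p, Odd p ∧ CharP F p ∧ g ^ p = 1 := by
  obtain ⟨p, hpp, hodd, hchar⟩ := hS.exists_odd_char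
  refine ⟨p, hodd, hchar, ?_⟩
  let N : Module.End F V := g.1.toLinearMap - 1
  have hN : ∀ v, N v = g.1 v - v := fun v => rfl
  have h1 : ∀ l ∈ kline F K y, N l = 0 := fun l hl => by
    obtain ⟨t, rfl⟩ := mem_kline.1 hl
    rw [hN, hy, sub_self]
  have h2 : ∀ v, h y v = 0 → N v ∈ kline F K y := fun v hv => by
    have := hg v
    rwa [hv, mul_zero, zero_smul, sub_zero] at this
  have h3 : ∀ v, h y (N v) = 0 := fun v => by
    have := pair_kline hf.yy (hg v)
    simpa [hN, hf.yb] using this
  have hN3 : N ^ 3 = 0 := LinearMap.ext fun v => by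
    show N (N (N v)) = 0
    exact h1 _ (h2 _ (h3 v))
  haveI : Nontrivial V := ⟨⟨y, 0, hf.y_ne⟩⟩
  haveI : Fact p.Prime := ⟨hpp⟩
  haveI : CharP (Module.End F V) p :=
    charP_of_injective_algebraMap (FaithfulSMul.algebraMap_injective F (Module.End F V)) p
  have hp3 : 3 ≤ p := by
    have := hpp.two_le
    obtain ⟨k, hk⟩ := hodd
    omega
  have e : ((g.1.toLinearMap : Module.End F V)) = 1 + N := by simp [N]
  have hpow : ∀ n : ℕ, ∀ v, (g ^ n).1 v = ((g.1.toLinearMap : Module.End F V) ^ n) v := by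
    intro n
    induction n with
    | zero => exact fun v => rfl
    | succ n ih => exact fun v => by rw [pow_succ, pow_succ, mul_val, ih]; rfl
  refine Subtype.ext (LinearEquiv.ext fun v => ?_)
  rw [hpow, e, add_pow_char_of_commute p (Commute.one_left N), one_pow,
    pow_eq_zero_of_le hp3 hN3, add_zero]
  rfl

/-- Elements fixing a line pointwise are translations modulo it. -/
theorem unip (hbare : Bare h M) {y b q : V} (hf : Frame h y b q) {a : OQ Q} (ha : a ∈ M)
    (hy : ∀ t : K, a.1 (t • y) = t • y) :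
    ∃ κ : K, ∀ v, a.1 v - v - (κ * h y v) • b ∈ kline F K y := by
  haveI := hS.finiteV
  obtain ⟨θ, τ, φ, κ, hτ, hφ, hφη, hθy, hy', hb'⟩ := hS.pure (hbare y hf.y_ne hf.yy) hf ha
    fun t => mem_kline.2 ⟨t, (hy t).symm⟩
  have hcoef : ∀ t, θ t / τ = t := fun t =>
    smul_left_injective K hf.y_ne ((hθy t).symm.trans (hy t))
  have hτ1 : τ = 1 := by
    have := hcoef 1
    rwa [map_one, div_eq_one_iff_eq hτ, eq_comm] at this
  have hθ1 : ∀ t, θ t = t := fun t => by simpa [hτ1] using hcoef t
  simp only [hθ1, hτ1, one_mul] at hy' hb' hφη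
  have key : ∀ (g : OQ Q) (κ : K), (∀ v, h y (g.1 v) = h y v) →
      (∀ v, h b (g.1 v) / h b b = h b v / h b b + κ * h y v) →
      ∀ v, g.1 v - v - (κ * h y v) • b ∈ kline F K y := by
    intro g κ hg1 hg2 v
    refine (hf.mem_kline_iff hS).2 ⟨by simp [hg1, hf.yb], ?_⟩
    have := hg2 v
    field_simp [hf.bb] at this
    simp only [map_sub, map_smul, smul_eq_mul]
    linear_combination this
  rcases mul_self_eq_one_iff.1 (mul_right_cancel₀ hf.bb (hφη.trans (one_mul _).symm) : φ * φ = 1)
    with rfl | rfl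
  · exact ⟨κ, key a κ hy' fun v => by rw [hb', one_mul]⟩
  exfalso
  -- the reflection along `K b`
  let s : V →ₗ[K] V := LinearMap.id - (2 / h b b) • (h b).smulRight b
  have hs : ∀ v, s v = v - (2 / h b b * h b v) • b := fun v => by simp [s, smul_smul]
  have hss : ∀ v, s (s v) = v := fun v => by
    simp only [hs, map_sub, map_smul, smul_eq_mul]
    match_scalars <;> (field_simp [hf.bb]; try ring)
  let f : V ≃ₗ[K] V := LinearEquiv.ofLinearMap s s (LinearMap.ext hss) (LinearMap.ext hss)
  obtain ⟨R, hR⟩ := hS.exists_iso (f := f) fun u v => by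
    show h (s u) (s v) = h u v
    simp only [hs, map_sub, map_smul, LinearMap.sub_apply, LinearMap.smul_apply, smul_eq_mul,
      hS.symm u b]
    field_simp [hf.bb]
    ring
  have hR' : ∀ v, R.1 v = v - (2 / h b b * h b v) • b := fun v => (hR v).trans (hs v)
  have hRy : ∀ v, h y (R.1 v) = h y v := fun v => by simp [hR', hf.yb]
  have hy2 : ∀ t : K, (a * R).1 (t • y) = t • y := fun t => by
    have : R.1 (t • y) = t • y := by simp [hR', hf.b_y hS]
    rw [mul_val, this, hy]
  obtain ⟨p, hp, -, hpow⟩ := hS.exists_pow_of_translation hf (g := a * R) (κ := κ) hy2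
    (key _ κ (fun v => by rw [mul_val, hy', hRy]) fun v => by
      rw [mul_val, hb', hRy]
      congr 1
      rw [hR', map_sub, map_smul, smul_eq_mul]
      field_simp [hf.bb]
      ring)
  have hRc : R ∈ commutator (OQ Q) := by
    have := mul_mem (inv_mem (hS.le_comm ha)) (hS.mem_commutator_of_odd hp hpow)
    rwa [inv_mul_cancel_left] at this
  have hd := Forms.dickson_of_mem_commutator hS.bnondeg hS.notExceptional hRc
  have hfix : fixSpace R = (LinearMap.ker (h b)).restrictScalars F := by
    ext v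
    rw [mem_fixSpace, Submodule.restrictScalars_mem, LinearMap.mem_ker, hR', sub_eq_self,
      smul_eq_zero, mul_eq_zero, div_eq_zero_iff]
    simp [hS.twoK, hf.bb]
    exact fun e => absurd (by simp [e] : h b b = 0) hf.bb
  have hk : finrank K (LinearMap.ker (h b)) = 2 := by
    have e1 := LinearMap.finrank_range_add_finrank_ker (h b)
    rw [LinearMap.range_eq_top.2 (fun c => ⟨(c / h b b) • b, by simp [div_mul_cancel₀ _ hf.bb]⟩),
      finrank_top, Module.finrank_self, hS.dim] at e1
    omega
  have hdim : finrank F (fixSpace R) = 2 * finrank F K := by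
    rw [hfix, mul_comm 2, ← hk]
    exact (Module.finrank_mul_finrank F K (LinearMap.ker (h b))).symm
  rw [dickson, hdim, hS.finrank_F] at hd
  have hodd : Odd (2 * finrank F K + 3 * finrank F K) := by
    rw [← add_mul]
    exact (show Odd 5 by decide).mul (hS.prime.odd_of_ne_two (by have := hS.five; omega))
  rw [hodd.neg_one_pow] at hd
  exact absurd hd (by decide)

lemma exists_pow_of_fix (hbare : Bare h M) {y b q : V} (hf : Frame h y b q) {a : OQ Q}
    (ha : a ∈ M) (hy : ∀ t : K, a.1 (t • y) = t • y) :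
    ∃ p, Odd p ∧ CharP F p ∧ a ^ p = 1 := by
  obtain ⟨κ, hκ⟩ := hS.unip hbare hf ha hy
  exact hS.exists_pow_of_translation hf hy hκ

/-- The action on a stabilised line and the size of the fixed space. -/
theorem on_line (hbare : Bare h M) {y : V} (hy0 : y ≠ 0) (hyy : h y y = 0) {a : OQ Q}
    (ha : a ∈ M) (hL : ∀ t : K, a.1 (t • y) ∈ kline F K y) :
    ∃ (θ : K ≃ₐ[F] K) (c : K), (∀ t : K, a.1 (t • y) = (θ t * c) • y) ∧
      (θ ≠ 1 → finrank F (fixSpace a) ≤ 3) := by
  obtain ⟨b, q, hf⟩ := hS.exists_frame hy0 hyy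
  obtain ⟨θ, τ, φ, κ, hτ, hφ, -, hθy, hy', hb'⟩ := hS.pure (hbare y hy0 hyy) hf ha hL
  refine ⟨θ, τ⁻¹, fun t => by rw [hθy, div_eq_mul_inv], fun hθ => ?_⟩
  let W := fixSpace a
  let f₁ : W →ₗ[F] K := (h y).restrictScalars F ∘ₗ W.subtype
  have h1 : finrank F (LinearMap.range f₁) ≤ 1 := by
    refine finrank_semi_le_one hS.prime hθ (c := τ⁻¹) _ ?_
    rintro _ ⟨⟨v, hv⟩, rfl⟩
    show θ (h y v) = τ⁻¹ * h y v
    conv_rhs => rw [← mem_fixSpace.1 hv, hy']
    rw [inv_mul_cancel_left₀ hτ]
  let f₂ : LinearMap.ker f₁ →ₗ[F] K :=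
    LinearMap.mulLeft F (h b b)⁻¹ ∘ₗ (h b).restrictScalars F ∘ₗ W.subtype ∘ₗ
      (LinearMap.ker f₁).subtype
  have hker : ∀ v : LinearMap.ker f₁, h y v.1.1 = 0 := fun v => v.2
  have hf₂ : ∀ v : LinearMap.ker f₁, f₂ v = h b v.1.1 / h b b := fun v => by
    rw [div_eq_inv_mul]; rfl
  have h2 : finrank F (LinearMap.range f₂) ≤ 1 := by
    refine finrank_semi_le_one hS.prime hθ (c := φ⁻¹) _ ?_
    rintro _ ⟨v, rfl⟩
    rw [hf₂]
    have := hb' v.1.1
    rw [mem_fixSpace.1 v.1.2, hker v, map_zero, mul_zero, add_zero] at this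
    conv_rhs => rw [this]
    rw [inv_mul_cancel_left₀ hφ]
  let f₃ : LinearMap.ker f₂ →ₗ[F] K :=
    (h q).restrictScalars F ∘ₗ W.subtype ∘ₗ (LinearMap.ker f₁).subtype ∘ₗ
      (LinearMap.ker f₂).subtype
  have hline : ∀ v : LinearMap.ker f₂, v.1.1.1 = f₃ v • y := fun v => by
    have e := hf.perp_eq hS (hker v.1)
    rw [← hf₂, (show f₂ v.1 = 0 from v.2), zero_smul, add_zero] at e
    exact e
  have h3 : finrank F (LinearMap.range f₃) ≤ 1 := by
    refine finrank_semi_le_one hS.prime hθ (c := τ) _ ?_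
    rintro _ ⟨v, rfl⟩
    have := mem_fixSpace.1 v.1.1.2
    rw [hline v, hθy] at this
    have e := smul_left_injective K hy0 this
    rw [div_eq_iff hτ] at e
    rw [e, mul_comm]
  have h4 : finrank F (LinearMap.ker f₂) ≤ 1 := by
    refine le_trans (le_of_eq (LinearMap.finrank_range_of_inj fun v v' hvv => ?_).symm) h3
    exact Subtype.ext (Subtype.ext (Subtype.ext (by rw [hline v, hline v', hvv])))
  have e1 := LinearMap.finrank_range_add_finrank_ker f₁
  have e2 := LinearMap.finrank_range_add_finrank_ker f₂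
  show finrank F W ≤ 3
  omega

/-- An element fixing a vector of a stabilised line with a large fixed space fixes the line. -/
lemma fix_line_of_big (hbare : Bare h M) {y : V} (hy0 : y ≠ 0) (hyy : h y y = 0) {a : OQ Q}
    (ha : a ∈ M) (hL : ∀ t : K, a.1 (t • y) ∈ kline F K y) {t₀ : K} (ht₀ : t₀ ≠ 0)
    (hfix : a.1 (t₀ • y) = t₀ • y) (hbig : 3 < finrank F (fixSpace a)) (t : K) :
    a.1 (t • y) = t • y := by
  obtain ⟨θ, c, hc, hsmall⟩ := hS.on_line hbare hy0 hyy ha hL
  have hθ : θ = 1 := by
    by_contra hne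
    have := hsmall hne
    omega
  subst hθ
  have := smul_left_injective K hy0 ((hc t₀).symm.trans hfix)
  rw [AlgEquiv.one_apply, mul_eq_left₀ ht₀] at this
  rw [hc, this, mul_one, AlgEquiv.one_apply]

/-- An element fixing two independent vectors of a stabilised line fixes the line. -/
lemma fix_line_of_two (hbare : Bare h M) {y : V} (hy0 : y ≠ 0) (hyy : h y y = 0) {a : OQ Q}
    (ha : a ∈ M) (hL : ∀ t : K, a.1 (t • y) ∈ kline F K y) (D : Submodule F V)
    (hD : D ≤ kline F K y) (hDdim : 2 ≤ finrank F D) (hfix : ∀ d ∈ D, a.1 d = d) (t : K) :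
    a.1 (t • y) = t • y := by
  obtain ⟨θ, c, hc, -⟩ := hS.on_line hbare hy0 hyy ha hL
  let ι : K →ₗ[F] V := (LinearMap.toSpanSingleton K V y).restrictScalars F
  have hι : Function.Injective ι := smul_left_injective K hy0
  have hd : 2 ≤ finrank F (D.comap ι) := by
    rw [(Submodule.equivMapOfInjective ι hι _).finrank_eq, Submodule.map_comap_eq_of_le ?_]
    · exact hDdim
    · intro d hd
      obtain ⟨k, hk⟩ := mem_kline.1 (hD hd)
      exact ⟨k, hk⟩
  have hfix' : ∀ k ∈ D.comap ι, θ k * c = k := fun k hk =>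
    smul_left_injective K hy0 ((hc k).symm.trans (hfix _ hk))
  obtain ⟨k, hk, hk0⟩ := (Submodule.ne_bot_iff (D.comap ι)).1 fun e => by
    rw [e, finrank_bot] at hd
    omega
  have hc0 : c ≠ 0 := fun e => hk0 (by simpa [e] using (hfix' k hk).symm)
  have hθ : θ = 1 := by
    by_contra hne
    have := finrank_semi_le_one hS.prime hne (c := c⁻¹) (D.comap ι) fun z hz => by
      conv_rhs => rw [← hfix' z hz, mul_comm (θ z), inv_mul_cancel_left₀ hc0]
    omega
  subst hθ
  have := hfix' k hk
  rw [AlgEquiv.one_apply, mul_eq_left₀ hk0] at this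
  rw [hc, this, mul_one, AlgEquiv.one_apply]

/-- An involution fixing a vector of a stabilised line is trivial. -/
lemma eq_one_of_involution (hbare : Bare h M) {y : V} (hy0 : y ≠ 0) (hyy : h y y = 0) {a : OQ Q}
    (ha : a ∈ M) (hL : ∀ t : K, a.1 (t • y) ∈ kline F K y) {t₀ : K} (ht₀ : t₀ ≠ 0)
    (hfix : a.1 (t₀ • y) = t₀ • y) (h2 : a * a = 1) : a = 1 := by
  obtain ⟨θ, c, hc, -⟩ := hS.on_line hbare hy0 hyy ha hL
  have hsq : ∀ t, θ (θ t) * (θ c * c) = t := fun t => by
    have e : (a * a).1 (t • y) = t • y := by rw [h2]; rfl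
    rw [mul_val, hc, hc, map_mul, mul_assoc] at e
    exact smul_left_injective K hy0 e
  have h1 := hsq 1
  simp only [map_one, one_mul] at h1
  have hθ2 : θ ^ 2 = 1 := AlgEquiv.ext fun t => by
    have := hsq t
    rw [h1, mul_one] at this
    rwa [pow_two, AlgEquiv.mul_apply]
  have hcard : Nat.card (K ≃ₐ[F] K) = finrank F K := by
    rw [Nat.card_eq_fintype_card, card_aut (F := F) (K := K)]
  have hθ : θ = 1 := by
    refine orderOf_eq_one_iff.1 (Nat.eq_one_of_dvd_coprimes
      (a := 2) (b := finrank F K) ?_ (orderOf_dvd_of_pow_eq_one hθ2)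
      (hcard ▸ orderOf_dvd_natCard θ))
    exact (Nat.coprime_primes Nat.prime_two hS.prime).2 (by have := hS.five; omega)
  subst hθ
  have := smul_left_injective K hy0 ((hc t₀).symm.trans hfix)
  rw [AlgEquiv.one_apply, mul_eq_left₀ ht₀] at this
  obtain ⟨b, q, hf⟩ := hS.exists_frame hy0 hyy
  obtain ⟨p, ⟨k, rfl⟩, -, hp⟩ := hS.exists_pow_of_fix hbare hf ha fun t => by
    rw [hc, this, mul_one, AlgEquiv.one_apply]
  rwa [pow_succ, pow_mul, pow_two, h2, one_pow, one_mul] at hp

/-- An element of `M` negating a vector of a stabilised line forces `-1` to be a square. -/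
lemma isSquare_neg_one_of_neg (hbare : Bare h M) {y : V} (hy0 : y ≠ 0) (hyy : h y y = 0)
    {a : OQ Q} (ha : a ∈ M) (hL : ∀ t : K, a.1 (t • y) ∈ kline F K y) {t₀ : K} (ht₀ : t₀ ≠ 0)
    (hneg : a.1 (t₀ • y) = -(t₀ • y)) : IsSquare (-1 : F) := by
  classical
  haveI := hS.finiteV
  obtain ⟨θ, c, hc, -⟩ := hS.on_line hbare hy0 hyy ha hL
  obtain ⟨b, q, hf⟩ := hS.exists_frame hy0 hyy
  have hodd : Odd (finrank F K) := hS.prime.odd_of_ne_two (by have := hS.five; omega)
  have hpow : ∀ n : ℕ, ∃ d : K, (∀ t : K, (a ^ n).1 (t • y) = ((θ ^ n) t * d) • y) ∧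
      (a ^ n).1 (t₀ • y) = (-1 : K) ^ n • (t₀ • y) := by
    intro n
    induction n with
    | zero => exact ⟨1, fun t => by simp, by simp⟩
    | succ n ih =>
      obtain ⟨d, hd, hd0⟩ := ih
      refine ⟨θ d * c, fun t => ?_, ?_⟩
      · rw [pow_succ' a, mul_val, hd, hc, map_mul, mul_assoc, pow_succ' θ, AlgEquiv.mul_apply]
      · rw [pow_succ' a, mul_val, hd0]
        rcases neg_one_pow_eq_or K n with e | e <;> rw [e, pow_succ, e]
        · simp [hneg]
        · simp [map_neg, hneg]
  obtain ⟨d, hd, hd0⟩ := hpow (finrank F K)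
  have hθr : θ ^ finrank F K = 1 := by
    rw [← card_aut (F := F) (K := K)]
    exact pow_card_eq_one
  rw [hd, hθr, AlgEquiv.one_apply, hodd.neg_one_pow, smul_smul] at hd0
  have hdn : d = -1 := mul_left_cancel₀ ht₀ ((smul_left_injective K hy0 hd0).trans (mul_comm _ _))
  obtain ⟨a', ha', ha'y⟩ : ∃ a' ∈ M, ∀ t : K, a'.1 (t • y) = (-t) • y :=
    ⟨_, pow_mem ha _, fun t => by rw [hd, hθr, AlgEquiv.one_apply, hdn, mul_neg_one]⟩
  obtain ⟨θ', τ, φ, κ, hτ, hφ, hφη, hθy, hy', hb'⟩ := hS.pure (hbare y hy0 hyy) hf ha'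
    fun t => mem_kline.2 ⟨-t, (ha'y t).symm⟩
  have hcoef : ∀ t, θ' t / τ = -t := fun t =>
    smul_left_injective K hy0 ((hθy t).symm.trans (ha'y t))
  have hτ1 : τ = -1 := by
    have := hcoef 1
    rw [map_one, div_eq_iff hτ] at this
    linear_combination this
  have hθ1 : ∀ t, θ' t = t := fun t => by simpa [hτ1, div_neg] using hcoef t
  simp only [hθ1, hτ1, neg_one_mul] at hy' hb' hφη
  -- a correcting element `D`
  have key : ∀ D : OQ Q, (∀ t : K, D.1 (t • y) = (-t) • y) → (∀ v, h y (D.1 v) = -h y v) →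
      (∀ v, φ * (h b (D.1 v) / h b b) = h b v / h b b) → D ∈ commutator (OQ Q) := by
    intro D hD1 hD2 hD3
    obtain ⟨p, hp, -, hpow⟩ := hS.exists_pow_of_translation hf (g := a' * D) (κ := -κ)
      (fun t => by rw [mul_val, hD1, ha'y, neg_neg]) fun v => by
        refine (hf.mem_kline_iff hS).2 ⟨by simp [mul_val, hy', hD2, hf.yb], ?_⟩
        have e := hb' (D.1 v)
        rw [hD3, hD2] at e
        field_simp [hf.bb] at e
        simp only [map_sub, map_smul, smul_eq_mul, mul_val]
        linear_combination e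
    have := mul_mem (inv_mem (hS.le_comm ha')) (hS.mem_commutator_of_odd hp hpow)
    rwa [inv_mul_cancel_left] at this
  rcases mul_self_eq_one_iff.1 (mul_right_cancel₀ hf.bb (hφη.trans (one_mul _).symm) : φ * φ = 1)
    with rfl | rfl
  · -- the negation of `K y + K q`
    let e := Module.finBasis F K
    have htr : (Algebra.traceForm F K).Nondegenerate := traceForm_nondegenerate F K
    let e' := LinearMap.BilinForm.dualBasis (Algebra.traceForm F K) htr e
    have hdual : ∀ i j, Algebra.trace F K (e' i * e j) = if j = i then 1 else 0 := fun i j => by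
      have := LinearMap.BilinForm.apply_dualBasis_left htr e i j
      rwa [Algebra.traceForm_apply] at this
    have hrepr : ∀ x : K, ∑ i, Algebra.trace F K (x * e i) • e' i = x := fun x => by
      conv_rhs => rw [← e'.sum_repr x]
      exact Finset.sum_congr rfl fun i _ => by
        rw [LinearMap.BilinForm.dualBasis_repr_apply, Algebra.traceForm_apply]
    have hrepr' : ∀ x : K, ∑ i, Algebra.trace F K (x * e' i) • e i = x := fun x => by
      refine ext_trace (F := F) fun t => ?_
      conv_rhs => rw [← hrepr t]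
      simp only [Finset.mul_sum, Finset.sum_mul, map_sum, smul_mul_assoc, mul_smul_comm, map_smul,
        smul_eq_mul]
      exact Finset.sum_congr rfl fun i _ => by rw [mul_comm x (e' i), mul_comm]
    let cv : Fin (finrank F K) ⊕ Fin (finrank F K) → V :=
      Sum.elim (fun i => e i • y + e' i • q) (fun i => e i • y - e' i • q)
    have hpol : ∀ i j : Fin (finrank F K), ∀ s t : F,
        polar Q (e i • y + s • (e' i • q)) (e j • y + t • (e' j • q)) =
          if j = i then s + t else 0 := by
      intro i j s t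
      rw [hS.tr]
      simp only [map_add, LinearMap.add_apply, map_smul, LinearMap.map_smul_of_tower,
        LinearMap.smul_apply, hf.yy, hf.qq, hf.yq, hf.qy hS, smul_eq_mul, mul_zero, mul_one,
        smul_zero, zero_add, add_zero]
      rw [mul_smul_comm, mul_smul_comm, map_smul, map_smul, mul_comm (e j), mul_comm (e i), hdual, hdual]
      by_cases hij : j = i
      · subst hij; simp
      · simp [hij, Ne.symm hij]
    have hQl : ∀ i, Q (cv (Sum.inl i)) = 1 := fun i => by
      refine mul_left_cancel₀ hS.two ?_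
      rw [two_mul (Q _), ← two_nsmul, ← polar_self]
      have := hpol i i 1 1
      rw [one_smul, if_pos rfl] at this
      show polar Q (e i • y + e' i • q) (e i • y + e' i • q) = _
      rw [this]
      norm_num
    have hQr : ∀ i, Q (cv (Sum.inr i)) = -1 := fun i => by
      refine mul_left_cancel₀ hS.two ?_
      rw [two_mul (Q _), ← two_nsmul, ← polar_self]
      have := hpol i i (-1) (-1)
      rw [neg_one_smul, if_pos rfl, ← sub_eq_add_neg] at this
      show polar Q (e i • y - e' i • q) (e i • y - e' i • q) = _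
      rw [this]
      norm_num
    obtain ⟨D, hD, hDc⟩ := Forms.exists_orthProd hS.bnondeg hS.notExceptional cv
      (fun k => by rcases k with i | i <;> simp [hQl, hQr])
      (by
        rintro (i | i) (j | j) hij
        · have := hpol i j 1 1
          rw [one_smul, one_smul, if_neg fun e => hij (by rw [e])] at this
          exact this
        · have := hpol i j 1 (-1)
          rw [one_smul, neg_one_smul, ← sub_eq_add_neg, add_neg_cancel, ite_self] at this
          exact this
        · have := hpol i j (-1) 1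
          rw [one_smul, neg_one_smul, ← sub_eq_add_neg, neg_add_cancel, ite_self] at this
          exact this
        · have := hpol i j (-1) (-1)
          rw [neg_one_smul, neg_one_smul, ← sub_eq_add_neg, ← sub_eq_add_neg,
            if_neg fun e => hij (by rw [e])] at this
          exact this)
    have hDv : ∀ v, D.1 v = v - (2 * h q v) • y - (2 * h y v) • q := by
      intro v
      rw [hD, Fintype.sum_sum_type, sub_sub, ← Finset.sum_add_distrib]
      congr 1
      simp only [hQl, hQr, inv_neg, inv_one, one_mul, neg_one_mul]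
      simp only [cv, Sum.elim_inl, Sum.elim_inr, polar_add_left, polar_sub_left, hS.polar_smul]
      conv_rhs => rw [two_mul, two_mul, add_smul, add_smul, ← hrepr' (h q v), ← hrepr (h y v)]
      simp only [Finset.sum_smul, ← Finset.sum_add_distrib]
      refine Finset.sum_congr rfl fun i _ => ?_
      rw [mul_comm (h q v), mul_comm (h y v)]
      simp only [smul_assoc]
      module
    have := (hDc.1 (key D (fun t => by
        simp only [hDv, map_smul, hf.qy hS, hf.yy, smul_eq_mul, mul_zero, zero_smul, sub_zero]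
        module)
      (fun v => by simp [hDv, hf.yy, hf.yq]; ring)
      (fun v => by simp [hDv, hf.b_y hS, hf.bq hS]))).2
    rw [Fintype.prod_sum_type] at this
    simpa [hQl, hQr, hodd.neg_one_pow] using this
  · exfalso
    have hneg : ∀ v : V, Q ((LinearEquiv.neg F : V ≃ₗ[F] V) v) = Q v := fun v => by
      simp [QuadraticMap.map_neg]
    have hc' := key ⟨LinearEquiv.neg F, hneg⟩ (fun t => (neg_smul t y).symm)
      (fun v => by simp) (fun v => by simp [neg_div])
    have hd' := Forms.dickson_of_mem_commutator hS.bnondeg hS.notExceptional hc'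
    have hfix : fixSpace (⟨LinearEquiv.neg F, hneg⟩ : OQ Q) = ⊥ := by
      refine (Submodule.eq_bot_iff _).2 fun v hv => ?_
      have e : (2 : F) • v = 0 := by
        rw [two_smul]
        nth_rewrite 1 [← mem_fixSpace.1 hv]
        exact neg_add_cancel v
      exact (smul_eq_zero.1 e).resolve_left hS.two
    rw [dickson, hfix, finrank_bot, zero_add, hS.finrank_F,
      ((show Odd 3 by decide).mul hodd).neg_one_pow] at hd'
    exact absurd hd' (by decide)

end Setup

end Cfsg.Agent.MaxSub.OrthExt3
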