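import Cfsg.Agent.MaxSub.OrthExt3.Orbit
import Cfsg.Agent.MaxSub.OrthExt3.Rot
import Cfsg.Agent.MaxSub.ExtField.Main

/-!
An overgroup containing an element which is not semilinear contains an element given by a skew
map at every singular line.
-/

set_option autoImplicit false
set_option linter.style.haveILetI false
set_option linter.unusedSectionVars false

namespace Cfsg.Agent.MaxSub.OrthExt3

open QuadraticMap Module Cfsg.Agent.Classical Cfsg.Agent.MaxSub.ExtField

universe u v w

/-- The sizes allowed for an orbit. -/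
lemma orbit_arith {q r j O h : ℕ} (hq : 3 ≤ q) (hr : 5 ≤ r) (hO : O = 1 + j * q ^ r)
    (hb : O * (q ^ r - q) < q ^ (3 * r - 1)) (hdvd : h ∣ O) :
    2 * h + 1 ≠ q ^ r ∧ (2 * h = q ^ r + 1 → O = q ^ r + 1) := by
  obtain ⟨u, hu⟩ : ∃ u, u = q ^ (r - 1) := ⟨_, rfl⟩
  have hN : q ^ r = q * u := by
    rw [hu, ← pow_succ']; congr 1; omega
  have hb' : q ^ (3 * r - 1) = q * u * (q * u) * u := by
    rw [hu, ← pow_succ', ← pow_add, ← pow_add]
    congr 1; omega
  have hu81 : 81 ≤ u := by
    rw [hu]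
    calc 81 = 3 ^ 4 := by norm_num
      _ ≤ q ^ 4 := Nat.pow_le_pow_left hq 4
      _ ≤ q ^ (r - 1) := Nat.pow_le_pow_right (by omega) (by omega)
  obtain ⟨k, rfl⟩ : ∃ k, u = k + 1 := ⟨u - 1, by omega⟩
  have hsub : q * (k + 1) - q = q * k := by rw [Nat.mul_succ]; omega
  rw [hN] at hO ⊢
  rw [hN, hb', hsub] at hb
  have hj : j * k < (k + 1) * (k + 1) := by
    have h1 : j * (q * (k + 1)) * (q * k) < q * (k + 1) * (q * (k + 1)) * (k + 1) := by
      refine lt_of_le_of_lt (Nat.mul_le_mul_right _ ?_) hb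
      omega
    have h2 : q * q * (k + 1) * (j * k) < q * q * (k + 1) * ((k + 1) * (k + 1)) := by linarith
    exact Nat.lt_of_mul_lt_mul_left h2
  obtain ⟨c, hc⟩ := hdvd
  have hj2 : 2 * j + 8 < 3 * (k + 1) := by
    by_contra hh
    push Not at hh
    nlinarith
  have h3 : 3 * (k + 1) ≤ q * (k + 1) := Nat.mul_le_mul_right _ hq
  refine ⟨fun hh => ?_, fun hh => ?_⟩
  · have hdiv : h ∣ 1 + j := by
      have e : 1 + j * (q * (k + 1)) = (1 + j) + h * (2 * j) := by rw [← hh]; ring
      have : h ∣ (1 + j) + h * (2 * j) := ⟨c, by rw [← e, ← hO, hc]⟩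
      exact (Nat.dvd_add_left (dvd_mul_right h _)).1 this
    have := Nat.le_of_dvd (by omega) hdiv
    omega
  · rcases Nat.lt_trichotomy j 1 with hj0 | rfl | hj1
    · obtain rfl : j = 0 := by omega
      have := Nat.le_of_dvd (by omega : 0 < O) ⟨c, hc⟩
      omega
    · omega
    · exfalso
      have hdiv : h ∣ j - 1 := by
        have h1 : h ∣ h * (2 * j) := dvd_mul_right h _
        have e : h * (2 * j) = O + (j - 1) := by
          rw [hO, show h * (2 * j) = 2 * h * j by ring, hh, add_mul, one_mul, mul_comm _ j]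
          omega
        rw [e] at h1
        exact (Nat.dvd_add_right ⟨c, hc⟩).1 h1
      have := Nat.le_of_dvd (by omega) hdiv
      omega

variable {F : Type u} {K : Type w} {V : Type v} [Field F] [Field K] [Algebra F K] [AddCommGroup V]
  [Module F V] [Module K V] [IsScalarTower F K V] [FiniteDimensional F K] [FiniteDimensional F V]
  [FiniteDimensional K V] [Finite F] [Finite K]
  {Q : QuadraticForm F V} {h : LinearMap.BilinForm K V} {M : Subgroup (OQ Q)}

namespace Setup

variable (hS : Setup Q h M)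
include hS

/-- An isometry mapping singular lines to lines is semilinear. -/
theorem semilinear_of_sing_lines {y : V} (hy : y ≠ 0) (hyy : h y y = 0) (g : V ≃ₗ[F] V)
    (hg : ∀ w : V, w ≠ 0 → h w w = 0 → ∀ c : K, g (c • w) ∈ kline F K (g w)) :
    ∀ c : K, ∃ c' : K, ∀ x, g (c • x) = c' • g x := by
  classical
  obtain ⟨b, q, hf⟩ := hS.exists_frame hy hyy
  have h2 := hS.twoK
  have hline : ∀ w : V, w ≠ 0 → h w w = 0 → ∀ x ∈ kline F K (g w), g.symm x ∈ kline F K w := by
    intro w hw hww x hx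
    have e : (kline F K w).map g.toLinearMap = kline F K (g w) := by
      refine Submodule.eq_of_le_of_finrank_eq ?_ (by
        rw [LinearEquiv.finrank_map_eq, finrank_kline hw, finrank_kline (by simpa using hw)])
      rintro _ ⟨v, hv, rfl⟩
      obtain ⟨c, rfl⟩ := mem_kline.1 hv
      exact hg w hw hww c
    rw [← e] at hx
    obtain ⟨z, hz, rfl⟩ := hx
    simpa using hz
  have hli : ∀ k : K, k ≠ 0 → LinearIndependent K ![g y, g q, g (k • b)] := by
    intro k hk
    rw [Fintype.linearIndependent_iff]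
    intro c hc
    simp only [Fin.sum_univ_three, Matrix.cons_val_zero, Matrix.cons_val_one, Matrix.cons_val_two,
      Matrix.tail_cons, Matrix.head_cons] at hc
    have hc2 : c 2 = 0 := by
      by_contra hne
      have e : g (k • b) = (-(c 0 / c 2)) • g y + (-(c 1 / c 2)) • g q := by
        refine smul_right_injective V hne ?_
        simp only [smul_add, smul_smul, mul_neg, mul_div_cancel₀ _ hne]
        linear_combination (norm := module) hc
      obtain ⟨t₁, ht₁⟩ := mem_kline.1 (hline y hy hyy _ (mem_kline.2 ⟨-(c 0 / c 2), rfl⟩))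
      obtain ⟨t₂, ht₂⟩ := mem_kline.1 (hline q hf.q_ne hf.qq _ (mem_kline.2 ⟨-(c 1 / c 2), rfl⟩))
      have e' : k • b = t₁ • y + t₂ • q := by
        rw [ht₁, ht₂, ← map_add, ← e, LinearEquiv.symm_apply_apply]
      have := congrArg (h b) e'
      simp [hf.b_y hS, hf.bq hS, hf.bb] at this
      exact hk this
    rw [hc2, zero_smul, add_zero] at hc
    have hc1 : c 1 = 0 := by
      by_contra hne
      have e : g q = (-(c 0 / c 1)) • g y := by
        refine smul_right_injective V hne ?_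
        simp only [smul_smul, mul_neg, mul_div_cancel₀ _ hne]
        linear_combination (norm := module) hc
      obtain ⟨t₁, ht₁⟩ := mem_kline.1 (hline y hy hyy _ (mem_kline.2 ⟨-(c 0 / c 1), rfl⟩))
      rw [← e, LinearEquiv.symm_apply_apply] at ht₁
      have := congrArg (h y) ht₁
      simp [hf.yy, hf.yq] at this
    rw [hc1, zero_smul, add_zero, smul_eq_zero] at hc
    have hc0 : c 0 = 0 := hc.resolve_right (by simpa using hy)
    intro i
    fin_cases i <;> assumption
  intro σ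
  obtain ⟨cy, hcy⟩ := mem_kline.1 (hg y hy hyy σ)
  refine ⟨cy, ?_⟩
  -- the multiplier along `k b` is that of `y` and `q`
  have key : ∀ k a : K, k ≠ 0 → a ≠ 0 → ∃ ρ : K, g (σ • (a • y)) = ρ • g (a • y) ∧
      g (σ • (k • b)) = ρ • g (k • b) ∧
      g (σ • ((k * k * h b b / 2 / a) • q)) = ρ • g ((k * k * h b b / 2 / a) • q) := by
    intro k a hk ha
    obtain ⟨β, hβ⟩ : ∃ β, β = k * k * h b b / 2 / a := ⟨_, rfl⟩
    rw [← hβ]
    have hsing : ∀ s : K, s * s = 1 →
        h (a • y + (s * k) • b - β • q) (a • y + (s * k) • b - β • q) = 0 := by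
      intro s hs
      simp only [map_add, map_sub, map_smul, LinearMap.add_apply, LinearMap.sub_apply,
        LinearMap.smul_apply, smul_eq_mul, hf.yy, hf.qq, hf.yq, hf.qy hS, hf.yb, hf.qb, hf.b_y hS,
        hf.bq hS, hβ]
      field_simp
      linear_combination (4 * a ^ 2 * (k * k * h b b)) * hs
    have hne : ∀ s : K, a • y + (s * k) • b - β • q ≠ 0 := fun s e => by
      have := congrArg (h q) e
      simp [hf.qy hS, hf.qb, hf.qq, ha] at this
    obtain ⟨ρ, hρ⟩ := mem_kline.1 (hg _ (hne 1) (hsing 1 (one_mul _)) σ)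
    obtain ⟨ρ', hρ'⟩ := mem_kline.1 (hg _ (hne (-1)) (hsing (-1) (by ring)) σ)
    obtain ⟨u₁, hu₁⟩ := mem_kline.1 (hg y hy hyy (σ * a))
    obtain ⟨v₁, hv₁⟩ := mem_kline.1 (hg y hy hyy a)
    obtain ⟨u₂, hu₂⟩ := mem_kline.1 (hg q hf.q_ne hf.qq (σ * β))
    obtain ⟨v₂, hv₂⟩ := mem_kline.1 (hg q hf.q_ne hf.qq β)
    simp only [one_mul, neg_mul, smul_add, smul_sub, map_add, map_sub, map_neg, neg_smul, smul_neg,
      smul_smul σ a, smul_smul σ β, ← hu₁, ← hu₂, ← hv₁, ← hv₂] at hρ hρ'
    have hdiff : (ρ * v₁ - ρ' * v₁) • g y + (-(ρ * v₂) + ρ' * v₂) • g q + (ρ + ρ') • g (k • b) =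
        (2 : K) • g (σ • (k • b)) := by
      linear_combination (norm := module) hρ - hρ'
    have hsum : (ρ * v₁ + ρ' * v₁ - 2 * u₁) • g y + (-(ρ * v₂) - ρ' * v₂ + 2 * u₂) • g q +
        (ρ - ρ') • g (k • b) = 0 := by
      linear_combination (norm := module) hρ + hρ'
    have hz := Fintype.linearIndependent_iff.1 (hli k hk)
      ![ρ * v₁ + ρ' * v₁ - 2 * u₁, -(ρ * v₂) - ρ' * v₂ + 2 * u₂, ρ - ρ'] (by
        simpa [Fin.sum_univ_three] using hsum)
    have z0 := hz 0
    have z1 := hz 1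
    have z2 := hz 2
    simp at z0 z1 z2
    obtain rfl : ρ = ρ' := sub_eq_zero.1 z2
    refine ⟨ρ, ?_, ?_, ?_⟩
    · rw [smul_smul, ← hu₁, ← hv₁, smul_smul]
      congr 1
      exact mul_left_cancel₀ h2 (by linear_combination -z0)
    · refine smul_right_injective V h2 ?_
      show (2 : K) • g (σ • (k • b)) = (2 : K) • (ρ • g (k • b))
      rw [← hdiff]
      module
    · rw [smul_smul, ← hu₂, ← hv₂, smul_smul]
      congr 1
      exact mul_left_cancel₀ h2 (by linear_combination z1)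
  have hky : ∀ a, a ≠ 0 → g (σ • (a • y)) = cy • g (a • y) ∧
      ∀ k, k ≠ 0 → g (σ • (k • b)) = cy • g (k • b) ∧
        g (σ • ((k * k * h b b / 2 / a) • q)) = cy • g ((k * k * h b b / 2 / a) • q) := by
    intro a ha
    have hsame : ∀ k : K, k ≠ 0 → ∀ a : K, a ≠ 0 → ∀ ρ : K, g (σ • (k • b)) = ρ • g (k • b) → ρ = cy := by
      intro k hk a _ ρ hρ
      obtain ⟨ρ₁, h1, h1', -⟩ := key k 1 hk one_ne_zero
      rw [one_smul] at h1
      have e1 : ρ₁ = cy := smul_left_injective K (by simpa using hy : g y ≠ 0) (h1.symm.trans hcy.symm)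
      have hkb : g (k • b) ≠ 0 := by
        simpa [hk] using fun e : b = 0 => hf.bb (by simp [e])
      rw [← e1]
      exact smul_left_injective K hkb (hρ.symm.trans h1')
    refine ⟨?_, fun k hk => ?_⟩
    · obtain ⟨ρ, h1, h2', -⟩ := key 1 a one_ne_zero ha
      rwa [hsame 1 one_ne_zero a ha ρ h2'] at h1
    · obtain ⟨ρ, -, h2', h3⟩ := key k a hk ha
      have e := hsame k hk a ha ρ h2'
      rw [e] at h2' h3
      exact ⟨h2', h3⟩
  intro x
  rw [hf.expand_vec hS x]
  simp only [smul_add, map_add]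
  congr 1
  · congr 1
    · by_cases hz : h q x = 0
      · simp [hz]
      · exact (hky _ hz).1
    · by_cases hz : h b x / h b b = 0
      · simp [hz]
      · exact ((hky 1 one_ne_zero).2 _ hz).1
  · by_cases hz : h y x = 0
    · simp [hz]
    · have e : (1 : K) * 1 * h b b / 2 / (h b b / 2 / h y x) = h y x := by
        field_simp [hf.bb]
      have := ((hky (h b b / 2 / h y x) (div_ne_zero (div_ne_zero hf.bb h2) hz)).2 1 one_ne_zero).2
      rwa [e] at this

/-- A member with an anisotropic vector. -/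
lemma exists_member_aniso {g : OQ Q} (hg : g ∈ M)
    (hnot : ¬ ∀ c : K, ∃ c' : K, ∀ x, g.1 (c • x) = c' • g.1 x) :
    ∃ w v : V, w ≠ 0 ∧ h w w = 0 ∧ v ∈ img K g w ∧ h v v ≠ 0 := by
  obtain ⟨y, -, hy0, hyy⟩ := Forms.exists_singular_vector_of_three_le (qK h)
    (S := (⊤ : Submodule K V)) (by rw [finrank_top, hS.dim])
  rw [qK_apply] at hyy
  by_contra hall
  push Not at hall
  refine hnot (hS.semilinear_of_sing_lines hy0 hyy g.1 fun w hw hww c => ?_)
  have hgw0 : g.1 w ≠ 0 := by simpa using hw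
  have h1 := hall w _ hw hww (apply_mem_img (self_mem_kline w))
  obtain ⟨b, q, hf⟩ := hS.exists_frame hgw0 h1
  have hsum : g.1 w + g.1 (c • w) ∈ img K g w :=
    add_mem (apply_mem_img (self_mem_kline w)) (apply_mem_img (mem_kline.2 ⟨c, rfl⟩))
  have h3 := hall w _ hw hww hsum
  have h4 := hall w _ hw hww (apply_mem_img (mem_kline.2 ⟨c, rfl⟩))
  simp only [map_add, LinearMap.add_apply, h1, h4, hS.symm (g.1 (c • w)) (g.1 w), zero_add,
    add_zero] at h3
  refine hf.mem_kline_of_sing hS ?_ h4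
  exact (mul_eq_zero.1 (show (2 : K) * h (g.1 w) (g.1 (c • w)) = 0 by linear_combination h3)).resolve_left hS.twoK

/-- Some skew map gives elements of the overgroup. -/
theorem not_bare {g : OQ Q} (hg : g ∈ M)
    (hnot : ¬ ∀ c : K, ∃ c' : K, ∀ x, g.1 (c • x) = c' • g.1 x) : ¬ Bare h M := by
  classical
  intro hbare
  haveI := hS.finiteOQ
  haveI := hS.finiteV
  haveI := Fintype.ofFinite F
  obtain ⟨w, v, hw, hww, hvU, hv⟩ := hS.exists_member_aniso hg hnot
  have hv0 : v ≠ 0 := fun e => hv (by simp [e])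
  have hq : 3 ≤ Nat.card F := by
    rw [Nat.card_eq_fintype_card]
    have h1 := FiniteField.odd_card_of_char_ne_two (F := F) fun e => hS.two (by
      haveI : CharP F 2 := ringChar.of_eq e
      exact CharTwo.two_eq_zero)
    have h2 := Fintype.one_lt_card (α := F)
    omega
  have hN : Nat.card K = Nat.card F ^ finrank F K :=
    Module.natCard_eq_pow_finrank (K := F) (V := K)
  let G : Subgroup (OQ Q) :=
    { carrier := {a | a ∈ M ∧ a.1 v = v}
      mul_mem' := fun {a c} ha hc => ⟨mul_mem ha.1 hc.1, by rw [mul_val, hc.2, ha.2]⟩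
      one_mem' := ⟨one_mem M, rfl⟩
      inv_mem' := fun {a} ha => ⟨inv_mem ha.1, by rw [inv_val, LinearEquiv.symm_apply_eq, ha.2]⟩ }
  have hCG : ∀ C : Subgroup (OQ Q), C ≤ M →
      (∀ c ∈ C, c ≠ 1 → ∀ x, c.1 x = x ↔ x ∈ kline F K v) → C ≤ G := fun C hCM hCf c hc =>
    ⟨hCM hc, by
      by_cases h1 : c = 1
      · subst h1; rfl
      · exact (hCf c hc h1 v).2 (self_mem_kline v)⟩
  by_cases hext : ∃ y, y ≠ 0 ∧ h y y = 0 ∧ h v y = 0
  · obtain ⟨y, hy0, hyy, hvy⟩ := hext
    obtain ⟨q₀, hq₀⟩ := hS.exists_pair_one hy0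
    obtain ⟨q₁, hq₁⟩ : ∃ q₁, q₁ = q₀ - (h v q₀ / h v v) • v := ⟨_, rfl⟩
    have e1 : h v q₁ = 0 := by simp [hq₁, div_mul_cancel₀ _ hv]
    have e2 : h y q₁ = 1 := by simp [hq₁, hq₀, hS.symm y v, hvy]
    obtain ⟨q, hq'⟩ : ∃ q, q = q₁ - (h q₁ q₁ / 2) • y := ⟨_, rfl⟩
    have e3 : h v q = 0 := by simp [hq', e1, hvy]
    have hf : Frame h y v q := by
      refine ⟨hyy, ?_, by rw [hS.symm, hvy], by rw [hS.symm, e3], by simp [hq', e2, hyy], hv⟩
      have h2 := hS.twoK
      simp only [hq', map_sub, map_smul, LinearMap.sub_apply, LinearMap.smul_apply, smul_eq_mul,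
        hS.symm q₁ y, e2, hyy]
      field_simp
      ring
    obtain ⟨C, hCM, hCf, hC⟩ := hS.exists_torus_group hf
    obtain ⟨j, hj, hdvd, hb⟩ := hS.orbit_size hbare hv hg hw hww hvU G (fun a ha => ha.1)
      (fun a ha => Or.inl ha.2) (fun a ha p _ _ hav => ⟨ha, hav⟩) C (hCG C hCM hCf) hCf
    rw [hN] at hj hb hC
    exact (orbit_arith hq hS.five hj hb hdvd).1 hC
  push Not at hext
  -- an anisotropic triple
  obtain ⟨e, hve, hee⟩ : ∃ e, h v e = 0 ∧ h e e ≠ 0 := by
    refine ⟨w - (h v w / h v v) • v, by simp [div_mul_cancel₀ _ hv], ?_⟩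
    simp only [map_sub, map_smul, LinearMap.sub_apply, LinearMap.smul_apply, smul_eq_mul, hww,
      hS.symm w v]
    field_simp [hv]
    simp [hext w hw hww, hv]
  obtain ⟨f, hvf, hef, hf0⟩ : ∃ f, h v f = 0 ∧ h e f = 0 ∧ f ≠ 0 := by
    have e1 := LinearMap.finrank_range_add_finrank_ker ((h v).prod (h e))
    have e2 := Submodule.finrank_le (LinearMap.range ((h v).prod (h e)))
    rw [Module.finrank_prod, Module.finrank_self] at e2
    rw [hS.dim] at e1
    obtain ⟨f, hf, hf0⟩ := (Submodule.ne_bot_iff (LinearMap.ker ((h v).prod (h e)))).1 fun hbot => by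
      rw [hbot, finrank_bot] at e1
      omega
    rw [LinearMap.mem_ker, LinearMap.prod_apply, Function.prod, Prod.mk_eq_zero] at hf
    exact ⟨f, hf.1, hf.2, hf0⟩
  have hff : h f f ≠ 0 := fun e0 => hext f hf0 e0 hvf
  have ht : Tri h v e f := ⟨hv, hee, hff, hve, hvf, hef⟩
  have hns : ¬ IsSquare (-(h f f / h e e)) := by
    rintro ⟨s, hs⟩
    have hne : s • e + f ≠ 0 := fun e0 => hff (by
      have := congrArg (h f) e0
      simpa [hS.symm f e, hef] using this)
    refine hext _ hne ?_ (by simp [hve, hvf])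
    simp only [map_add, map_smul, LinearMap.add_apply, LinearMap.smul_apply, smul_eq_mul,
      hS.symm f e, hef]
    field_simp [hee] at hs
    linear_combination -hs
  obtain ⟨C, hCM, hCf, hC⟩ := hS.exists_rot_group ht hns
  rw [hN] at hC
  have hsize : ∀ H : Subgroup (OQ Q), H ≤ M → (∀ a ∈ H, a.1 v = v ∨ a.1 v = -v) →
      (∀ a ∈ M, ∀ p : ℕ, Odd p → a ^ p = 1 → a.1 v = v → a ∈ H) → C ≤ H →
      Nat.card (orb K H g w) = Nat.card F ^ finrank F K + 1 := by
    intro H hHM hHv hA hCH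
    obtain ⟨j, hj, hdvd, hb⟩ := hS.orbit_size hbare hv hg hw hww hvU H hHM hHv hA C hCH hCf
    rw [hN] at hj hb
    exact (orbit_arith hq hS.five hj hb hdvd).2 hC
  have hO := hsize G (fun a ha => ha.1) (fun a ha => Or.inl ha.2)
    (fun a ha p _ _ hav => ⟨ha, hav⟩) (hCG C hCM hCf)
  obtain ⟨t₀, ht₀⟩ := mem_kline.1 (mem_img.1 hvU)
  have ht₀0 : t₀ ≠ 0 := fun e0 => hv0 (by
    rw [e0, zero_smul, eq_comm] at ht₀
    simpa using congrArg g.1 ht₀)
  by_cases hsq : IsSquare (-1 : F)
  · -- `q ≡ 1 mod 4`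
    have hN1 : (Nat.card F ^ finrank F K) % 4 = 1 := by
      have h4 := FiniteField.isSquare_neg_one_iff.1 hsq
      rw [← Nat.card_eq_fintype_card] at h4
      have hodd : Nat.card F % 2 = 1 := by
        rw [Nat.card_eq_fintype_card]
        exact FiniteField.odd_card_of_char_ne_two fun e => hS.two (by
          haveI : CharP F 2 := ringChar.of_eq e
          exact CharTwo.two_eq_zero)
      rw [Nat.pow_mod, show Nat.card F % 4 = 1 by omega, one_pow]; try rfl
    have hCodd : Odd (Nat.card C) := Nat.odd_iff.2 (by omega)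
    letI act : MulAction G (Submodule F V) :=
      { smul := fun a S => S.map a.1.1.toLinearMap
        one_smul := fun S => Submodule.map_id _
        mul_smul := fun a c S => by
          show S.map _ = (S.map _).map _
          rw [← Submodule.map_comp]
          rfl }
    have horb : MulAction.orbit G (img K g w) = orb K G g w := by
      ext S
      constructor
      · rintro ⟨a, rfl⟩
        exact ⟨a.1, a.2, (map_img a.1 g w).symm⟩
      · rintro ⟨a, ha, rfl⟩
        exact ⟨⟨a, ha⟩, map_img a g w⟩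
    have hGcard : Nat.card (orb K G g w) * Nat.card (MulAction.stabilizer G (img K g w)) =
        Nat.card G := by
      rw [← horb, ← Nat.card_prod]
      exact Nat.card_congr (MulAction.orbitProdStabilizerEquivGroup G _)
    have hstab : Odd (Nat.card (MulAction.stabilizer G (img K g w))) := by
      rw [← Nat.not_even_iff_odd, even_iff_two_dvd]
      intro h2
      haveI : Fact (Nat.Prime 2) := ⟨Nat.prime_two⟩
      obtain ⟨a, ha⟩ := exists_prime_orderOf_dvd_card' 2 h2
      have ha2 : a * a = 1 := by rw [← pow_two, ← ha, pow_orderOf_eq_one]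
      obtain ⟨e', he'⟩ : ∃ e', e' = g⁻¹ * a.1.1 * g := ⟨_, rfl⟩
      have hev : ∀ z, e'.1 z = g.1.symm (a.1.1.1 (g.1 z)) := fun z => by rw [he']; rfl
      have hstab' : (img K g w).map a.1.1.1.toLinearMap = img K g w := a.2
      have heL : ∀ t : K, e'.1 (t • w) ∈ kline F K w := fun t => by
        rw [hev]
        have hm := Submodule.mem_map_of_mem (f := a.1.1.1.toLinearMap)
          (apply_mem_img (g := g) (mem_kline.2 ⟨t, rfl⟩ : t • w ∈ kline F K w))
        rw [hstab'] at hm
        exact mem_img.1 hm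
      have h1 := hS.eq_one_of_involution hbare hw hww
        (show e' ∈ M by rw [he']; exact mul_mem (mul_mem (inv_mem hg) a.1.2.1) hg) heL ht₀0
        (by rw [hev, ht₀, LinearEquiv.apply_symm_apply, a.1.2.2]) (by
          have ha2' : a.1.1 * a.1.1 = 1 := congrArg (fun z : MulAction.stabilizer G (img K g w) => z.1.1) ha2
          rw [he', show g⁻¹ * a.1.1 * g * (g⁻¹ * a.1.1 * g) = g⁻¹ * (a.1.1 * a.1.1) * g by group,
            ha2', mul_one, inv_mul_cancel])
      have h1' : a.1.1 = 1 := by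
        rw [he'] at h1
        have e2 := congrArg (fun z => g * z * g⁻¹) h1
        simpa [mul_assoc] using e2
      rw [show a = 1 from Subtype.ext (Subtype.ext h1'), orderOf_one] at ha
      omega
    -- the subgroup of index two
    rw [hO] at hGcard
    obtain ⟨s, hs⟩ := hstab
    rw [hs] at hGcard
    have hG2 : Nat.card G % 4 = 2 := by
      rw [← hGcard, Nat.mul_mod, Nat.add_mod, hN1]
      have : (2 * s + 1) % 4 = 1 ∨ (2 * s + 1) % 4 = 3 := by omega
      rcases this with e | e <;> rw [e]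
    obtain ⟨P⟩ : Nonempty (Sylow 2 G) := inferInstance
    haveI : Fact (Nat.Prime 2) := ⟨Nat.prime_two⟩
    have hP2 : Nat.card P = 2 := by
      rw [P.card_eq_multiplicity]
      have h1 : (Nat.card G).factorization 2 = 1 := by
        have hne : Nat.card G ≠ 0 := Nat.card_pos.ne'
        refine le_antisymm ?_ ((Nat.prime_two.dvd_iff_one_le_factorization hne).1 (by omega))
        by_contra hlt
        have := (Nat.prime_two.pow_dvd_iff_le_factorization hne).2
          (show 2 ≤ (Nat.card G).factorization 2 by omega)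
        omega
      rw [h1, pow_one]
    haveI : IsCyclic P := isCyclic_of_prime_card hP2
    have hmin : (Nat.card G).minFac = 2 :=
      (Nat.minFac_eq_two_iff _).2 (by omega)
    have hcompl := MonoidHom.ker_transferSylow_isComplement' P
      (IsCyclic.normalizer_le_centralizer hmin inferInstance)
    obtain ⟨G₀, hG₀⟩ : ∃ G₀, G₀ =
        (MonoidHom.transferSylow P (IsCyclic.normalizer_le_centralizer hmin inferInstance)).ker :=
      ⟨_, rfl⟩
    rw [← hG₀] at hcompl
    have hidx : G₀.index = 2 := by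
      rw [hcompl.symm.index_eq_card]
      exact hP2
    have hodd0 : ∀ a : G, ∀ n : ℕ, Odd n → a ^ n = 1 → a ∈ G₀ := by
      rintro a n ⟨k, rfl⟩ ha
      have e : a = a ^ (k + 1) * a ^ (k + 1) := by
        rw [← pow_add, show k + 1 + (k + 1) = (2 * k + 1) + 1 by ring, pow_succ, ha, one_mul]
      rw [e]
      exact Subgroup.mul_self_mem_of_index_two hidx _
    have hmap : ∀ a (ha : a ∈ G), ∀ n : ℕ, Odd n → a ^ n = 1 → a ∈ G₀.map G.subtype :=
      fun a ha n hn han => ⟨⟨a, ha⟩, hodd0 _ n hn (Subtype.ext han), rfl⟩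
    have hO0 := hsize (G₀.map G.subtype) (by rintro _ ⟨a, -, rfl⟩; exact a.2.1)
      (by rintro _ ⟨a, -, rfl⟩; exact Or.inl a.2.2)
      (fun a ha p hp hpow hav => hmap a ⟨ha, hav⟩ p hp hpow)
      (fun c hc => hmap c (hCG C hCM hCf hc) _ hCodd (by
        have : (⟨c, hc⟩ : C) ^ Nat.card C = 1 := pow_card_eq_one'
        exact congrArg Subtype.val this))
    have horb0 : MulAction.orbit G₀ (img K g w) = orb K (G₀.map G.subtype) g w := by
      ext S
      constructor
      · rintro ⟨a, rfl⟩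
        exact ⟨a.1.1, ⟨a.1, a.2, rfl⟩, (map_img a.1.1 g w).symm⟩
      · rintro ⟨_, ⟨a, ha, rfl⟩, rfl⟩
        exact ⟨⟨a, ha⟩, map_img a.1 g w⟩
    have hdvd0 : Nat.card (orb K (G₀.map G.subtype) g w) ∣ Nat.card G₀ := by
      refine ⟨Nat.card (MulAction.stabilizer G₀ (img K g w)), ?_⟩
      rw [← horb0, ← Nat.card_prod]
      exact (Nat.card_congr (MulAction.orbitProdStabilizerEquivGroup G₀ _)).symm
    rw [hO0] at hdvd0
    have h2 := G₀.card_mul_index
    rw [hidx] at h2
    have h3 : 2 ∣ Nat.card G₀ := (show 2 ∣ Nat.card F ^ finrank F K + 1 by omega).trans hdvd0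
    omega
  · -- `q ≡ 3 mod 4`
    obtain ⟨j, hjM, hjv⟩ := hS.exists_turn ht
    let G' : Subgroup (OQ Q) :=
      { carrier := {a | a ∈ M ∧ (a.1 v = v ∨ a.1 v = -v)}
        mul_mem' := fun {a c} ha hc => ⟨mul_mem ha.1 hc.1, by
          rw [mul_val]
          rcases hc.2 with e | e <;> rcases ha.2 with e' | e' <;> simp [e, e']⟩
        one_mem' := ⟨one_mem M, Or.inl rfl⟩
        inv_mem' := fun {a} ha => ⟨inv_mem ha.1, by
          rw [inv_val, LinearEquiv.symm_apply_eq, LinearEquiv.symm_apply_eq]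
          rcases ha.2 with e | e
          · exact Or.inl e.symm
          · exact Or.inr (by rw [map_neg, e, neg_neg])⟩ }
    have hO' := hsize G' (fun a ha => ha.1) (fun a ha => ha.2)
      (fun a ha p _ _ hav => ⟨ha, Or.inl hav⟩) (fun c hc => ⟨hCM hc, Or.inl (hCG C hCM hCf hc).2⟩)
    haveI : Finite (Submodule F V) := Finite.of_injective _ SetLike.coe_injective
    have heq : orb K G g w = orb K G' g w := Set.eq_of_subset_of_ncard_le
      (by rintro _ ⟨a, ha, rfl⟩; exact ⟨a, ⟨ha.1, Or.inl ha.2⟩, rfl⟩)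
      (by rw [← Nat.card_coe_set_eq, ← Nat.card_coe_set_eq, hO, hO'])
    obtain ⟨a, ha, hmem⟩ : img K (j * g) w ∈ orb K G g w :=
      heq ▸ ⟨j, ⟨hjM, Or.inr hjv⟩, rfl⟩
    obtain ⟨s, hs⟩ : ∃ s, s = g⁻¹ * a⁻¹ * j * g := ⟨_, rfl⟩
    have hsv : ∀ z, s.1 z = g.1.symm (a.1.symm (j.1 (g.1 z))) := fun z => by rw [hs]; rfl
    refine hsq (hS.isSquare_neg_one_of_neg hbare hw hww
      (hs ▸ mul_mem (mul_mem (mul_mem (inv_mem hg) (inv_mem ha.1)) hjM) hg)
      (fun t => ?_) ht₀0 ?_)
    · have h1 : j.1 (g.1 (t • w)) ∈ img K (j * g) w := apply_mem_img (g := j * g) (mem_kline.2 ⟨t, rfl⟩)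
      rw [← hmem, ← map_img] at h1
      obtain ⟨z, hz, hz'⟩ := h1
      rw [hsv, ← hz']
      show g.1.symm (a.1.symm (a.1 z)) ∈ _
      rw [LinearEquiv.symm_apply_apply]
      exact mem_img.1 hz
    · rw [hsv, ht₀, LinearEquiv.apply_symm_apply, hjv, map_neg]
      rw [show a.1.symm v = v from (LinearEquiv.symm_apply_eq _).2 ha.2.symm, map_neg]

/-- All singular lines carry skew maps. -/
theorem space_ne_bot {g : OQ Q} (hg : g ∈ M)
    (hnot : ¬ ∀ c : K, ∃ c' : K, ∀ x, g.1 (c • x) = c' • g.1 x) {y : V} (hy0 : y ≠ 0)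
    (hy : h y y = 0) : space h M y ≠ ⊥ := by
  have hb := hS.not_bare hg hnot
  simp only [Bare, not_forall] at hb
  obtain ⟨y₀, hy₀0, hy₀, hne⟩ := hb
  exact hS.space_ne_bot_all hy₀0 hy₀ hne hy0 hy

end Setup

end Cfsg.Agent.MaxSub.OrthExt3
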